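import Mathlib
import Cfsg.Agent.ShultGrossH65.Count

/-!
# Exact counting for an operator normalizing a group of class two

An operator `T` with `T ^ P = 1` normalizes a group `S` acting on `E` so that `S / Z` carries a non-degenerate
commutator pairing with scalar values and `T` is regular on `S / Z`. Then `End E` is free of rank `|S / Z|`
over the commutant of `S`, and the commutant of `T` is bounded by the fixed part of the commutant and the
regular orbits.
-/

set_option autoImplicit false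

open scoped commutatorElement
open CfsgLib.ShultGrossH65 (card_eq_of_regular dvd_card_sub_one)

namespace CfsgLib.GrossHeight

universe u v w

variable {k : Type w} [Field k] {E : Type v} [AddCommGroup E] [Module k E]

/-- The centralizer of an operator `T` with `T ^ m = 1` and few eigen values is large. -/
theorem sq_finrank_le_card_mul [IsAlgClosed k] [FiniteDimensional k E] {m : ℕ} (hm : 0 < m) (hmk : (m : k) ≠ 0)
    (T : Module.End k E) (hT : T ^ m = 1) (Λ : Finset k) (hΛ : ∀ (μ : k) (v : E), T v = μ • v → v ≠ 0 → μ ∈ Λ)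
    (CT : Submodule k (Module.End k E)) (hCT : ∀ X, T * X = X * T → X ∈ CT) :
    Module.finrank k E ^ 2 ≤ Λ.card * Module.finrank k CT ∧ Module.finrank k E ≤ Module.finrank k CT := by
  classical
  haveI : NeZero ((m : ℕ) : k) := ⟨hmk⟩
  obtain ⟨ζ, hζ⟩ := HasEnoughRootsOfUnity.prim (M := k) (n := m)
  let P : ℕ → Module.End k E := fun j => (m : k)⁻¹ • ∑ i ∈ Finset.range m, ζ ^ (i * j) • T ^ i
  have hζ0 : ζ ≠ 0 := hζ.ne_zero hm.ne'
  have hTP : ∀ j, T * P j = (ζ ^ j)⁻¹ • P j := by
    intro j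
    rw [eq_inv_smul_iff₀ (pow_ne_zero _ hζ0)]
    show ζ ^ j • (T * ((m : k)⁻¹ • _)) = _
    rw [mul_smul_comm, smul_comm, Finset.mul_sum, Finset.smul_sum]
    congr 1
    have h1 := Finset.sum_range_succ' (fun i => ζ ^ (i * j) • T ^ i) m
    have h2 := Finset.sum_range_succ (fun i => ζ ^ (i * j) • T ^ i) m
    rw [h2, hT, zero_mul, pow_zero, pow_zero, pow_mul, hζ.pow_eq_one, one_pow] at h1
    refine Eq.trans (Finset.sum_congr rfl fun i _ => ?_) (add_right_cancel h1).symm
    rw [mul_smul_comm, smul_smul, ← pow_succ', ← pow_add]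
    ring_nf
  have hcomm : ∀ j, P j * T = T * P j := by
    intro j
    show ((m : k)⁻¹ • _) * T = T * ((m : k)⁻¹ • _)
    rw [smul_mul_assoc, mul_smul_comm, Finset.sum_mul, Finset.mul_sum]
    refine congrArg _ (Finset.sum_congr rfl fun i _ => ?_)
    rw [smul_mul_assoc, mul_smul_comm, ← pow_succ, ← pow_succ']
  have hTiP : ∀ (i : ℕ) j, T ^ i * P j = (ζ ^ j)⁻¹ ^ i • P j := by
    intro i j
    induction i with
    | zero => simp
    | succ i ih => rw [pow_succ, mul_assoc, hTP, mul_smul_comm, ih, smul_smul, pow_succ, mul_comm]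
  have hPP : ∀ j < m, ∀ l < m, P l * P j = if l = j then P j else 0 := by
    intro j hj l hl
    show ((m : k)⁻¹ • ∑ i ∈ Finset.range m, ζ ^ (i * l) • T ^ i) * P j = _
    rw [smul_mul_assoc, Finset.sum_mul]
    simp only [smul_mul_assoc, hTiP, smul_smul]
    rw [← Finset.sum_smul, smul_smul]
    have hrw : ∀ i, ζ ^ (i * l) * (ζ ^ j)⁻¹ ^ i = (ζ ^ l * (ζ ^ j)⁻¹) ^ i := by
      intro i
      rw [mul_pow, ← pow_mul, mul_comm l i]
    simp only [hrw]
    split_ifs with h
    · subst h
      simp [mul_inv_cancel₀ (pow_ne_zero _ hζ0), inv_mul_cancel₀ hmk]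
    · have hx : ζ ^ l * (ζ ^ j)⁻¹ ≠ 1 := fun h1 => h (hζ.pow_inj hl hj (by
        rwa [mul_inv_eq_one₀ (pow_ne_zero _ hζ0)] at h1))
      have h3 := geom_sum_mul (ζ ^ l * (ζ ^ j)⁻¹) m
      rw [mul_pow, inv_pow, ← pow_mul, ← pow_mul, mul_comm l, mul_comm j, pow_mul, pow_mul,
        hζ.pow_eq_one, one_pow, one_pow, inv_one, one_mul, sub_self] at h3
      rw [(mul_eq_zero.1 h3).resolve_right (sub_ne_zero.2 hx), mul_zero, zero_smul]
  let J : Finset ℕ := (Finset.range m).filter fun j => P j ≠ 0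
  have hJ : J.card ≤ Λ.card := by
    refine Finset.card_le_card_of_injOn (fun j => (ζ ^ j)⁻¹) (fun j hj => ?_) fun j hj l hl hjl => ?_
    · obtain ⟨hj1, hj2⟩ := Finset.mem_filter.1 (Finset.mem_coe.1 hj)
      obtain ⟨v, hv⟩ : ∃ v, P j v ≠ 0 := by
        by_contra h
        push Not at h
        exact hj2 (LinearMap.ext fun v => h v)
      exact hΛ _ _ (LinearMap.congr_fun (hTP j) v) hv
    · exact hζ.pow_inj (Finset.mem_range.1 (Finset.mem_filter.1 (Finset.mem_coe.1 hj)).1)
        (Finset.mem_range.1 (Finset.mem_filter.1 (Finset.mem_coe.1 hl)).1) (inv_injective hjl)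
  have hsum : ∑ j ∈ Finset.range m, P j = 1 := by
    show ∑ j ∈ Finset.range m, (m : k)⁻¹ • _ = _
    rw [← Finset.smul_sum, Finset.sum_comm]
    simp only [← Finset.sum_smul]
    rw [Finset.sum_eq_single_of_mem 0 (Finset.mem_range.2 hm)]
    · simp [smul_smul, inv_mul_cancel₀ hmk]
    · intro i hi hi0
      have hx : ζ ^ i ≠ 1 := hζ.pow_ne_one_of_pos_of_lt hi0 (Finset.mem_range.1 hi)
      have h3 := geom_sum_mul (ζ ^ i) m
      rw [← pow_mul ζ i m, mul_comm i m, pow_mul, hζ.pow_eq_one, one_pow, sub_self] at h3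
      simp only [pow_mul]
      rw [(mul_eq_zero.1 h3).resolve_right (sub_ne_zero.2 hx), zero_smul]
  let R : J → Submodule k E := fun j => LinearMap.range (P (j : ℕ))
  have hj : ∀ j : J, (j : ℕ) < m := fun j => Finset.mem_range.1 (Finset.mem_filter.1 j.2).1
  let π : ∀ j, E →ₗ[k] R j := fun j => (P (j : ℕ)).rangeRestrict
  have hπ : ∀ (j l : J) (x : R l), (π j x.1 : E) = if j = l then (x : E) else 0 := by
    rintro j l ⟨_, y, rfl⟩
    show (P (j : ℕ) * P (l : ℕ)) y = _
    rw [hPP _ (hj l) _ (hj j)]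
    by_cases h : j = l
    · subst h; simp
    · rw [if_neg (fun h' => h (Subtype.ext h')), if_neg h, LinearMap.zero_apply]
  have hn : Module.finrank k E ≤ ∑ j, Module.finrank k (R j) := by
    rw [← Module.finrank_pi_fintype k]
    refine LinearMap.finrank_le_finrank_of_injective (f := LinearMap.pi π) fun x y hxy => ?_
    have hz : ∀ j : J, P (j : ℕ) (x - y) = 0 := fun j => by
      have := congrArg (Subtype.val : R j → E) (congrFun hxy j)
      rw [map_sub, sub_eq_zero]
      exact this
    have h1 := LinearMap.congr_fun hsum (x - y)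
    rw [LinearMap.sum_apply, Module.End.one_apply, Finset.sum_eq_zero fun j hj' => ?_, eq_comm,
      sub_eq_zero] at h1
    · exact h1
    · by_cases hP0 : P j = 0
      · rw [hP0, LinearMap.zero_apply]
      · exact hz ⟨j, Finset.mem_filter.2 ⟨hj', hP0⟩⟩
  let Ψ : (∀ j, Module.End k (R j)) →ₗ[k] CT :=
    { toFun := fun f => ⟨∑ j, (R j).subtype ∘ₗ (f j) ∘ₗ π j, hCT _ (by
        rw [Finset.mul_sum, Finset.sum_mul]
        refine Finset.sum_congr rfl fun j _ => LinearMap.ext fun v => ?_
        have hT1 : ∀ u : E, T (P (j : ℕ) u) = (ζ ^ (j : ℕ))⁻¹ • P (j : ℕ) u :=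
          fun u => LinearMap.congr_fun (hTP _) u
        obtain ⟨u, hu⟩ := (f j (π j v)).2
        have hπT : π j (T v) = (ζ ^ (j : ℕ))⁻¹ • π j v := Subtype.ext (by
          show (P (j : ℕ) * T) v = _
          rw [hcomm, hTP]
          rfl)
        show T (f j (π j v) : E) = (f j (π j (T v)) : E)
        rw [hπT, map_smul, Submodule.coe_smul, ← hu, hT1])⟩
      map_add' := fun f g => Subtype.ext (by
        simp only [Pi.add_apply, LinearMap.add_comp, LinearMap.comp_add, Finset.sum_add_distrib,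
          Submodule.coe_add])
      map_smul' := fun c f => Subtype.ext (by
        simp only [Pi.smul_apply, LinearMap.smul_comp, LinearMap.comp_smul, Finset.smul_sum,
          Submodule.coe_smul, RingHom.id_apply]) }
  have hΨ : Function.Injective Ψ := fun f g hfg => funext fun l => LinearMap.ext fun x => by
    have h1 := congrArg (fun X : CT => π l ((X : Module.End k E) x.1)) hfg
    have key : ∀ f : ∀ j, Module.End k (R j), π l ((Ψ f : Module.End k E) x.1) = f l x := by
      intro f
      apply Subtype.ext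
      show (π l ((∑ j, (R j).subtype ∘ₗ (f j) ∘ₗ π j) x.1) : E) = _
      simp only [LinearMap.sum_apply, LinearMap.comp_apply, Submodule.subtype_apply, map_sum,
        Submodule.coe_sum, hπ]
      rw [Finset.sum_eq_single_of_mem l (Finset.mem_univ l) (fun j _ h => if_neg (Ne.symm h)), if_pos rfl,
        show π l x.1 = x from Subtype.ext (by rw [hπ, if_pos rfl])]
    simpa only [key] using h1
  have hsq := LinearMap.finrank_le_finrank_of_injective hΨ
  rw [Module.finrank_pi_fintype k] at hsq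
  simp only [Module.finrank_linearMap, Module.finrank_self] at hsq
  refine ⟨?_, hn.trans ((Finset.sum_le_sum fun j _ => Nat.le_self_pow two_ne_zero _).trans ?_)⟩
  · calc Module.finrank k E ^ 2 ≤ (∑ j, Module.finrank k (R j)) ^ 2 := Nat.pow_le_pow_left hn 2
      _ ≤ (Finset.univ : Finset J).card * ∑ j, Module.finrank k (R j) ^ 2 := sq_sum_le_card_mul_sum_sq
      _ ≤ _ := by
          rw [Finset.card_univ, Fintype.card_coe]
          refine Nat.mul_le_mul hJ ?_
          simpa only [pow_two] using hsq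
  · simpa only [pow_two] using hsq

variable {S : Type u} [Group S] [Finite S]

/-- The exact counting step. -/
theorem count_regular [FiniteDimensional k E] [Nontrivial E] [IsAlgClosed k] {P : ℕ} (hP : 0 < P)
    (hSk : (Nat.card S : k) ≠ 0) (α : MulAut S) (hα : α ^ P = 1) (Z : Subgroup S) [Z.Normal]
    (hZα : ∀ z ∈ Z, α z ∈ Z) (hSZ : ∀ s t : S, ⁅s, t⁆ ∈ Z)
    (hreg : ∀ i, 0 < i → i < P → ∀ s : S, s⁻¹ * (α ^ i) s ∈ Z → s ∈ Z)
    (L : S →* Module.End k E) (T : Module.End k E) (hT : T ^ P = 1)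
    (hcomm : ∀ s, T * L s = L (α s) * T) (χ : Z →* kˣ)
    (hχ : ∀ z : Z, L (z : S) = (χ z : k) • 1)
    (hnd : ∀ s : S, s ∉ Z → ∃ t : S, χ ⟨⁅t, s⁆, hSZ t s⟩ ≠ 1)
    (C₀ : Submodule k (Module.End k E)) (hC₀ : ∀ X, X ∈ C₀ ↔ ∀ s, L s * X = X * L s)
    (CT : Submodule k (Module.End k E)) (hCT : ∀ X, X ∈ CT ↔ T * X = X * T) :
    (∃ a, Nat.card (S ⧸ Z) = a ^ 2) ∧ P ∣ Nat.card (S ⧸ Z) - 1 ∧
      Module.finrank k E ^ 2 = Nat.card (S ⧸ Z) * Module.finrank k C₀ ∧
      Module.finrank k CT ≤ Module.finrank k ↥(C₀ ⊓ CT) + (Nat.card (S ⧸ Z) - 1) / P * Module.finrank k C₀ := by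
  classical
  letI : Fintype S := Fintype.ofFinite S
  letI : Fintype (S ⧸ Z) := Fintype.ofFinite _
  have hLinv : ∀ s, L s * L s⁻¹ = 1 := fun s => by rw [← map_mul, mul_inv_cancel, map_one]
  have hLinv' : ∀ s, L s⁻¹ * L s = 1 := fun s => by rw [← map_mul, inv_mul_cancel, map_one]
  have hsinj : ∀ a b : kˣ, (a : k) • (1 : Module.End k E) = (b : k) • 1 → a = b := fun a b h => by
    obtain ⟨x, hx⟩ := exists_ne (0 : E)
    exact Units.ext (smul_left_injective k hx (by simpa using LinearMap.congr_fun h x))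
  have hχconj : ∀ (r : S) (z : S) (hz : z ∈ Z),
      χ ⟨r * z * r⁻¹, (inferInstance : Z.Normal).conj_mem z hz r⟩ = χ ⟨z, hz⟩ := fun r z hz => by
    refine hsinj _ _ ?_
    rw [← hχ, ← hχ]
    show L (r * z * r⁻¹) = L z
    rw [map_mul, map_mul, hχ ⟨z, hz⟩, mul_smul_comm, mul_one, smul_mul_assoc, hLinv]
  have hTinv : T * T ^ (P - 1) = 1 := by rw [← pow_succ', Nat.sub_add_cancel hP, hT]
  have hχα : ∀ (z : S) (hz : z ∈ Z), χ ⟨α z, hZα z hz⟩ = χ ⟨z, hz⟩ := fun z hz => by
    refine hsinj _ _ ?_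
    rw [← hχ, ← hχ]
    show L (α z) = L z
    calc L (α z) = L (α z) * T * T ^ (P - 1) := by rw [mul_assoc, hTinv, mul_one]
      _ = L z := by rw [← hcomm, hχ ⟨z, hz⟩, mul_smul_comm, mul_one, smul_mul_assoc, hTinv]
  -- the pairing
  let b : S → S →* kˣ := fun t => MonoidHom.mk' (fun r => χ ⟨⁅t, r⁆, hSZ t r⟩) fun r s => by
    show χ _ = χ _ * χ _
    rw [← hχconj r ⁅t, s⁆ (hSZ t s), ← map_mul]
    refine congrArg χ (Subtype.ext ?_)
    show ⁅t, r * s⁆ = ⁅t, r⁆ * (r * ⁅t, s⁆ * r⁻¹)
    simp only [commutatorElement_def]; group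
  have hswap : ∀ t r : S, χ ⟨⁅r, t⁆, hSZ r t⟩ = (χ ⟨⁅t, r⁆, hSZ t r⟩)⁻¹ := fun t r => by
    rw [← map_inv]
    exact congrArg χ (Subtype.ext (commutatorElement_inv t r).symm)
  have hLL : ∀ t r, L t * L r * L t⁻¹ = (χ ⟨⁅t, r⁆, hSZ t r⟩ : k) • L r := fun t r => by
    rw [← map_mul, ← map_mul, show t * r * t⁻¹ = ⁅t, r⁆ * r by simp [commutatorElement_def, mul_assoc],
      map_mul, hχ ⟨⁅t, r⁆, hSZ t r⟩, smul_mul_assoc, one_mul]
  have hbZ' : ∀ t ∈ Z, ∀ r, χ ⟨⁅t, r⁆, hSZ t r⟩ = 1 := fun t ht r => by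
    refine hsinj _ _ ?_
    rw [← hχ]
    show L ⁅t, r⁆ = _
    rw [commutatorElement_def, map_mul, map_mul, map_mul, hχ ⟨t, ht⟩, Units.val_one, one_smul]
    have : L t⁻¹ = ((χ ⟨t, ht⟩)⁻¹ : kˣ).val • (1 : Module.End k E) := by
      rw [← map_inv, ← hχ]
      rfl
    rw [this]
    simp only [smul_mul_assoc, one_mul, mul_smul_comm, mul_one, smul_smul]
    rw [Units.inv_mul, one_smul, hLinv]
  have hbZ : ∀ t, ∀ z ∈ Z, b t z = 1 := fun t z hz => by
    show χ _ = 1
    rw [hswap, hbZ' z hz, inv_one]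
  let bt : S → (S ⧸ Z) →* kˣ := fun t => QuotientGroup.lift Z (b t) fun z hz => hbZ t z hz
  let btH : S →* ((S ⧸ Z) →* kˣ) := MonoidHom.mk' bt fun t t' => MonoidHom.ext fun v => by
    induction v using QuotientGroup.induction_on with
    | _ r =>
      show χ _ = χ _ * χ _
      rw [← hχconj t ⁅t', r⁆ (hSZ t' r), mul_comm, ← map_mul]
      refine congrArg χ (Subtype.ext ?_)
      show ⁅t * t', r⁆ = t * ⁅t', r⁆ * t⁻¹ * ⁅t, r⁆
      simp only [commutatorElement_def]; group
  have hbtZ : ∀ t ∈ Z, bt t = 1 := fun t ht => MonoidHom.ext fun v => by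
    induction v using QuotientGroup.induction_on with
    | _ r => exact hbZ' t ht r
  have hndV : ∀ v : S ⧸ Z, (∀ t, bt t v = 1) → v = 1 := by
    intro v hv
    induction v using QuotientGroup.induction_on with
    | _ r =>
      refine (QuotientGroup.eq_one_iff r).2 ?_
      by_contra hr
      obtain ⟨t, ht⟩ := hnd r hr
      exact ht (hv t)
  -- the square
  have hsquare : ∃ a, Nat.card (S ⧸ Z) = a ^ 2 := by
    letI : CommGroup (S ⧸ Z) := { (inferInstance : Group (S ⧸ Z)) with
      mul_comm := by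
        intro v w
        induction v using QuotientGroup.induction_on with
        | _ r =>
          induction w using QuotientGroup.induction_on with
          | _ s =>
            rw [← QuotientGroup.mk_mul, ← QuotientGroup.mk_mul, QuotientGroup.eq]
            rw [show (r * s)⁻¹ * (s * r) = ⁅s⁻¹, r⁻¹⁆ by simp [commutatorElement_def, mul_assoc]]
            exact hSZ _ _ }
    refine CfsgLib.FpfAut.exists_sq_of_pairing
      (CfsgLib.FpfAut.natCast_ne_zero_of_dvd (Subgroup.card_quotient_dvd_card Z) hSk)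
      (QuotientGroup.lift Z btH hbtZ) (fun v => ?_) (fun v hv => ?_)
    · induction v using QuotientGroup.induction_on with
      | _ r => exact (congrArg χ (Subtype.ext (commutatorElement_self r))).trans (map_one χ)
    · induction v using QuotientGroup.induction_on with
      | _ r =>
        refine hndV _ fun t => ?_
        show χ ⟨⁅t, r⁆, hSZ t r⟩ = 1
        rw [hswap, inv_eq_one]
        exact hv (t : S ⧸ Z)
  let comp : S ⧸ Z → (Module.End k E →ₗ[k] Module.End k E) := fun v =>
    ∑ t : S, ((bt t v)⁻¹ : kˣ).val • (LinearMap.mulLeft k (L t) ∘ₗ LinearMap.mulRight k (L t⁻¹))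
  have hcomp : ∀ v X, comp v X = ∑ t : S, ((bt t v)⁻¹ : kˣ).val • (L t * X * L t⁻¹) := fun v X => by
    simp only [comp, LinearMap.sum_apply, LinearMap.smul_apply, LinearMap.comp_apply,
      LinearMap.mulLeft_apply, LinearMap.mulRight_apply, mul_assoc]
  have hpiece : ∀ (v : S ⧸ Z) (X : Module.End k E), L (v.out)⁻¹ * comp v X ∈ C₀ := by
    intro v X
    refine (hC₀ _).2 fun s => ?_
    have hcj : L s * comp v X * L s⁻¹ = (bt s v : k) • comp v X := by
      rw [hcomp, Finset.mul_sum, Finset.sum_mul, Finset.smul_sum,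
        ← Equiv.sum_comp (Equiv.mulLeft s) (fun t => (bt s v : k) • ((bt t v)⁻¹ : kˣ).val • (L t * X * L t⁻¹))]
      refine Finset.sum_congr rfl fun t _ => ?_
      have hsc : (bt s v : k) * ((bt (s * t) v)⁻¹ : kˣ).val = ((bt t v)⁻¹ : kˣ).val := by
        rw [← Units.val_mul, show bt (s * t) v = bt s v * bt t v from DFunLike.congr_fun (map_mul btH s t) v]
        refine congrArg Units.val ?_
        rw [mul_inv, mul_inv_cancel_left]
      rw [Equiv.coe_mulLeft, smul_smul, hsc, mul_inv_rev, map_mul L, map_mul L, mul_smul_comm, smul_mul_assoc]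
      simp only [mul_assoc]
    have hcr : L s * L v.out⁻¹ * L s⁻¹ = ((bt s v)⁻¹ : kˣ).val • L v.out⁻¹ := by
      rw [hLL]
      congr 2
      show b s v.out⁻¹ = _
      rw [map_inv]
      exact congrArg _ (congrArg (bt s) (QuotientGroup.out_eq' v))
    calc L s * (L v.out⁻¹ * comp v X)
        = (L s * L v.out⁻¹ * L s⁻¹) * (L s * comp v X * L s⁻¹) * L s := by
          simp only [mul_assoc, hLinv', mul_one]
          rw [← mul_assoc (L s⁻¹) (L s), hLinv' s, one_mul]
      _ = L v.out⁻¹ * comp v X * L s := by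
          rw [hcr, hcj, smul_mul_assoc, mul_smul_comm, smul_smul, Units.inv_mul, one_smul]
  have hrec : ∀ X : Module.End k E, (∀ v, comp v X = 0) → X = 0 := by
    intro X hX
    have h1 : ∑ v : S ⧸ Z, comp v X = 0 := Finset.sum_eq_zero fun v _ => hX v
    simp only [hcomp] at h1
    rw [Finset.sum_comm] at h1
    simp only [← Finset.sum_smul] at h1
    have h2 : ∀ t : S, (∑ v : S ⧸ Z, ((bt t v)⁻¹ : kˣ).val) • (L t * X * L t⁻¹) =
        if t ∈ Z then (Fintype.card (S ⧸ Z) : k) • X else 0 := by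
      intro t
      split_ifs with ht
      · rw [hbtZ t ht]
        simp only [MonoidHom.one_apply, inv_one, Units.val_one, Finset.sum_const, Finset.card_univ,
          nsmul_eq_mul, mul_one]
        rw [hχ ⟨t, ht⟩, show L t⁻¹ = (χ ⟨t, ht⟩⁻¹ : k) • 1 from hχ ⟨t⁻¹, inv_mem ht⟩ |>.trans (by
          rw [show (⟨t⁻¹, inv_mem ht⟩ : Z) = (⟨t, ht⟩ : Z)⁻¹ from rfl, map_inv])]
        simp [smul_smul]
      · have hne : (bt t)⁻¹ ≠ 1 := by
          intro h
          obtain ⟨r, hr⟩ := hnd t ht
          refine hr ?_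
          rw [hswap, inv_eq_one]
          exact inv_eq_one.1 (DFunLike.congr_fun h (r : S ⧸ Z))
        rw [show (∑ v : S ⧸ Z, ((bt t v)⁻¹ : kˣ).val) = 0 from CfsgLib.FpfAut.sum_units_eq_zero hne, zero_smul]
    simp only [h2, ← Finset.sum_filter, Finset.sum_const] at h1
    rw [← Nat.cast_smul_eq_nsmul k, smul_smul, smul_eq_zero] at h1
    refine h1.resolve_left (mul_ne_zero ?_ ?_)
    · rw [← Fintype.card_subtype, ← Nat.card_eq_fintype_card]
      exact CfsgLib.FpfAut.natCast_ne_zero_of_dvd (Subgroup.card_subgroup_dvd_card Z) hSk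
    · rw [← Nat.card_eq_fintype_card]
      exact CfsgLib.FpfAut.natCast_ne_zero_of_dvd (Subgroup.card_quotient_dvd_card Z) hSk
  -- the rank
  have hlow : Fintype.card (S ⧸ Z) * Module.finrank k C₀ ≤ Module.finrank k E ^ 2 := by
    let Θ : (S ⧸ Z → C₀) →ₗ[k] Module.End k E :=
      { toFun := fun Y => ∑ v, L v.out * (Y v : Module.End k E)
        map_add' := fun Y Y' => by simp [mul_add, Finset.sum_add_distrib]
        map_smul' := fun c Y => by simp [Finset.smul_sum] }
    have hΘ : Function.Injective Θ := by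
      rw [injective_iff_map_eq_zero]
      intro Y hY
      funext u
      have h1 : comp u (Θ Y) = (Nat.card S : k) • (L u.out * (Y u : Module.End k E)) := by
        have h3 : ∀ (t : S) v, L t * (L v.out * (Y v : Module.End k E)) * L t⁻¹ =
            (bt t v : k) • (L v.out * (Y v : Module.End k E)) := by
          intro t v
          calc L t * (L v.out * (Y v : Module.End k E)) * L t⁻¹
              = (L t * L v.out * L t⁻¹) * (L t * (Y v : Module.End k E) * L t⁻¹) := by
                simp only [mul_assoc]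
                rw [← mul_assoc (L t⁻¹) (L t), hLinv' t, one_mul]
            _ = _ := by
              rw [hLL, (hC₀ _).1 (Y v).2 t, mul_assoc (Y v : Module.End k E), hLinv, mul_one, smul_mul_assoc]
              congr 2
              exact congrArg (bt t) (QuotientGroup.out_eq' v)
        rw [hcomp]
        show ∑ t : S, _ • (L t * (∑ v, L v.out * (Y v : Module.End k E)) * L t⁻¹) = _
        simp only [Finset.mul_sum, Finset.sum_mul, h3, Finset.smul_sum, smul_smul]
        rw [Finset.sum_comm, Finset.sum_eq_single_of_mem u (Finset.mem_univ u)]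
        · simp only [Units.inv_mul, one_smul, Finset.sum_const, Finset.card_univ]
          rw [Nat.card_eq_fintype_card, Nat.cast_smul_eq_nsmul]
        · intro v _ hv
          rw [← Finset.sum_smul]
          let g : S →* kˣ := ((MonoidHom.eval u)⁻¹ * MonoidHom.eval v).comp btH
          have hg : g ≠ 1 := fun h => hv (inv_mul_eq_one.1 (hndV (u⁻¹ * v) fun t => by
            rw [map_mul, map_inv]
            exact DFunLike.congr_fun h t)).symm
          have h4 : (∑ t : S, ((bt t u)⁻¹ : kˣ).val * (bt t v : k)) = 0 := by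
            rw [← CfsgLib.FpfAut.sum_units_eq_zero hg]
            exact Finset.sum_congr rfl fun t _ => (Units.val_mul _ _).symm
          rw [h4, zero_smul]
      rw [hY, map_zero, eq_comm, smul_eq_zero] at h1
      have h2 := congrArg (L u.out⁻¹ * ·) (h1.resolve_left hSk)
      simp only [← mul_assoc, hLinv', one_mul, mul_zero] at h2
      exact Subtype.ext h2
    have := LinearMap.finrank_le_finrank_of_injective hΘ
    rwa [Module.finrank_pi_fintype, Finset.sum_const, Finset.card_univ, smul_eq_mul,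
      Module.finrank_linearMap, ← pow_two] at this
  have hhigh : Module.finrank k E ^ 2 ≤ Fintype.card (S ⧸ Z) * Module.finrank k C₀ := by
    let Γ : Module.End k E →ₗ[k] (S ⧸ Z → C₀) :=
      { toFun := fun X v => ⟨L v.out⁻¹ * comp v X, hpiece v X⟩
        map_add' := fun X Y => funext fun v => Subtype.ext (by simp [mul_add])
        map_smul' := fun c X => funext fun v => Subtype.ext (by simp) }
    have hΓ : Function.Injective Γ := by
      rw [injective_iff_map_eq_zero]
      intro X hX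
      refine hrec X fun v => ?_
      have h1 : L v.out⁻¹ * comp v X = 0 := congrArg Subtype.val (congrFun hX v)
      have h2 := congrArg (L v.out * ·) h1
      simpa only [← mul_assoc, hLinv, one_mul, mul_zero] using h2
    have := LinearMap.finrank_le_finrank_of_injective hΓ
    rwa [Module.finrank_pi_fintype, Finset.sum_const, Finset.card_univ, smul_eq_mul,
      Module.finrank_linearMap, ← pow_two] at this
  -- orbits of the operator
  have hZαmap : Z.map (α : S ≃* S).toMonoidHom = Z :=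
    Subgroup.eq_of_le_of_card_ge (by rintro _ ⟨z, hz, rfl⟩; exact hZα z hz)
      (Subgroup.card_map_of_injective (f := (α : S ≃* S).toMonoidHom) α.injective).ge
  let ᾱ : MulAut (S ⧸ Z) := QuotientGroup.congr Z Z α hZαmap
  have hᾱi : ∀ (i : ℕ) (r : S), (ᾱ ^ i) (r : S ⧸ Z) = (((α ^ i) r : S) : S ⧸ Z) := by
    intro i r
    induction i with
    | zero => rfl
    | succ i ih => rw [pow_succ', MulAut.mul_apply, ih, pow_succ', MulAut.mul_apply]; rfl
  have hᾱP : ᾱ ^ P = 1 := by
    refine MulEquiv.ext fun v => ?_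
    induction v using QuotientGroup.induction_on with
    | _ r => rw [hᾱi, hα]; rfl
  have hregQ : ∀ i, 0 < i → i < P → ∀ x : S ⧸ Z, (ᾱ ^ i) x = x → x = 1 := by
    intro i h0 hi x hx
    induction x using QuotientGroup.induction_on with
    | _ r =>
      rw [hᾱi, eq_comm, QuotientGroup.eq] at hx
      exact (QuotientGroup.eq_one_iff r).2 (hreg i h0 hi r hx)
  let Ω := MulAction.orbitRel.Quotient (Subgroup.zpowers ᾱ) (S ⧸ Z)
  letI : Fintype Ω := Fintype.ofFinite _
  have hcount := card_eq_of_regular ᾱ hP hᾱP hregQ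
  have hdvd := dvd_card_sub_one ᾱ hP hᾱP hregQ
  rw [Nat.card_eq_fintype_card, Nat.card_eq_fintype_card] at hcount
  have hstep : ∀ (u : S ⧸ Z) (X : Module.End k E), T * X = X * T →
      comp (ᾱ u) X = T * comp u X * T ^ (P - 1) := by
    intro u X hX
    rw [hcomp, hcomp, Finset.mul_sum, Finset.sum_mul,
      ← Equiv.sum_comp α.toEquiv (fun t => ((bt t (ᾱ u))⁻¹ : kˣ).val • (L t * X * L t⁻¹))]
    refine Finset.sum_congr rfl fun t _ => ?_
    have hbα : bt (α t) (ᾱ u) = bt t u := by
      induction u using QuotientGroup.induction_on with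
      | _ r =>
        show χ _ = χ _
        rw [← hχα ⁅t, r⁆ (hSZ t r)]
        refine congrArg χ (Subtype.ext ?_)
        show ⁅α t, α r⁆ = α ⁅t, r⁆
        rw [← map_commutatorElement]
    show ((bt (α t) (ᾱ u))⁻¹ : kˣ).val • (L (α t) * X * L (α t)⁻¹) = _
    rw [hbα, mul_smul_comm, smul_mul_assoc, ← map_inv α]
    congr 1
    calc L (α t) * (X : Module.End k E) * L (α t⁻¹)
        = L (α t) * X * (L (α t⁻¹) * (T * T ^ (P - 1))) := by rw [hTinv, mul_one]
      _ = L (α t) * (X * T) * L t⁻¹ * T ^ (P - 1) := by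
          rw [← mul_assoc (L (α t⁻¹)), ← hcomm]; simp only [mul_assoc]
      _ = (L (α t) * T) * X * L t⁻¹ * T ^ (P - 1) := by
          rw [← hX]; simp only [mul_assoc]
      _ = _ := by rw [← hcomm]; simp only [mul_assoc]
  let o := {ω : Ω // Quotient.out ω ≠ 1}
  have hone : ∀ X, X ∈ CT → L ((1 : S ⧸ Z).out)⁻¹ * comp 1 X ∈ C₀ ⊓ CT := by
    intro X hX
    refine ⟨hpiece 1 X, ?_⟩
    obtain ⟨c, hc⟩ : ∃ c : kˣ, L ((1 : S ⧸ Z).out)⁻¹ = (c : k) • 1 :=
      ⟨_, hχ ⟨_, inv_mem ((QuotientGroup.eq_one_iff _).1 (QuotientGroup.out_eq' (1 : S ⧸ Z)))⟩⟩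
    rw [hc, smul_mul_assoc, one_mul]
    refine Submodule.smul_mem _ _ ((hCT _).2 ?_)
    conv_rhs => rw [← map_one ᾱ, hstep 1 X ((hCT X).1 hX)]
    rw [mul_assoc _ (T ^ (P - 1)) T, ← pow_succ, Nat.sub_add_cancel hP, hT, mul_one]
  have hup : Module.finrank k CT ≤ Module.finrank k ↥(C₀ ⊓ CT) + Fintype.card o * Module.finrank k C₀ := by
    let Φ : CT →ₗ[k] ↥(C₀ ⊓ CT) × (o → C₀) :=
      { toFun := fun X => (⟨L ((1 : S ⧸ Z).out)⁻¹ * comp 1 (X : Module.End k E), hone _ X.2⟩,
          fun ω => ⟨L (Quotient.out ω.1).out⁻¹ * comp (Quotient.out ω.1) (X : Module.End k E), hpiece _ _⟩)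
        map_add' := fun X Y => Prod.ext (Subtype.ext (by simp [mul_add]))
          (funext fun ω => Subtype.ext (by simp [mul_add]))
        map_smul' := fun c X => Prod.ext (Subtype.ext (by simp)) (funext fun ω => Subtype.ext (by simp)) }
    have hΦ : Function.Injective Φ := by
      rw [injective_iff_map_eq_zero]
      intro X hX
      refine Subtype.ext (hrec _ fun v => ?_)
      obtain ⟨g, hg⟩ : v ∈ MulAction.orbit (Subgroup.zpowers ᾱ) (Quotient.out (Quotient.mk'' v : Ω)) :=
        MulAction.orbitRel_apply.1 (Quotient.exact' (Quotient.out_eq' (Quotient.mk'' v : Ω)).symm)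
      obtain ⟨i, hi⟩ := mem_powers_iff_mem_zpowers.2 g.2
      have hzero : comp (Quotient.out (Quotient.mk'' v : Ω)) (X : Module.End k E) = 0 := by
        have h1 : L (Quotient.out (Quotient.mk'' v : Ω)).out⁻¹ *
            comp (Quotient.out (Quotient.mk'' v : Ω)) (X : Module.End k E) = 0 := by
          by_cases h : Quotient.out (Quotient.mk'' v : Ω) = 1
          · rw [h]
            exact congrArg Subtype.val (congrArg Prod.fst hX)
          · exact congrArg Subtype.val (congrFun (congrArg Prod.snd hX) ⟨Quotient.mk'' v, h⟩)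
        have h2 := congrArg (L (Quotient.out (Quotient.mk'' v : Ω)).out * ·) h1
        simpa only [← mul_assoc, hLinv, one_mul, mul_zero] using h2
      have hall : ∀ i : ℕ, comp ((ᾱ ^ i) (Quotient.out (Quotient.mk'' v : Ω))) (X : Module.End k E) = 0 := by
        intro i
        induction i with
        | zero => exact hzero
        | succ i ih => rw [pow_succ', MulAut.mul_apply, hstep _ _ ((hCT _).1 X.2), ih, mul_zero, zero_mul]
      rw [← show g • Quotient.out (Quotient.mk'' v : Ω) = v from hg, Subgroup.smul_def, ← hi]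
      exact hall i
    have := LinearMap.finrank_le_finrank_of_injective hΦ
    rwa [Module.finrank_prod, Module.finrank_pi_fintype, Finset.sum_const, Finset.card_univ, smul_eq_mul] at this
  refine ⟨hsquare, hdvd, ?_, hup.trans (Nat.add_le_add_left (Nat.mul_le_mul_right _ ?_) _)⟩
  · rw [Nat.card_eq_fintype_card]
    exact le_antisymm hhigh hlow
  · rw [Nat.card_eq_fintype_card, hcount, Nat.add_sub_cancel_left, Nat.mul_div_cancel_left _ hP]
    refine Nat.le_sub_one_of_lt (Fintype.card_subtype_lt (x := (Quotient.mk'' 1 : Ω)) ?_)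
    rw [not_not]
    obtain ⟨g, hg⟩ : Quotient.out (Quotient.mk'' (1 : S ⧸ Z) : Ω) ∈
        MulAction.orbit (Subgroup.zpowers ᾱ) (1 : S ⧸ Z) :=
      MulAction.orbitRel_apply.1 (Quotient.exact' (Quotient.out_eq' (Quotient.mk'' (1 : S ⧸ Z) : Ω)))
    rw [← hg]
    exact map_one (g : MulAut (S ⧸ Z))

end CfsgLib.GrossHeight
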