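import Mathlib
import Cfsg.Agent.GrossHeight.Count
import Cfsg.Agent.ShultGrossH65.Fixed

/-!
# A fixed point free operator of two-power order on a group of class two

The weight spaces of a fixed point free operator of order dividing `2 ^ N` normalizing a `q`-group of class
two, `q` odd: either the involutory power acts trivially modulo the radical of the weight, or the period `P`
of the operator on the weight satisfies `P = q ^ e + 1`, the operator fixes modulo the radical whatever the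
involution fixes, and an invariant piece of dimension `P - 1` has commutant of dimension at most `P - 1`.
-/

set_option autoImplicit false

open scoped commutatorElement
open CfsgLib.ShultGrossH65 (orbit_reduce twist_iter subRep subRep_coe restrict_iter sq_finrank_le_of_fpf)

namespace CfsgLib.GrossHeight

universe u v w

/-- The arithmetic of the counting. -/
theorem count_arith {e a o M : ℕ} (ha : 1 < a) (hodd : Odd a) (ho : a ^ 2 = 1 + o * 2 ^ e) (hM : 0 < M)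
    (h1 : a ^ 2 * M ^ 2 ≤ (2 ^ e - 1) * (1 + o * M ^ 2)) (h2 : a * M ≤ 1 + o * M ^ 2) :
    1 < e ∧ M = 1 ∧ a + 1 = 2 ^ e ∧ o + 2 = 2 ^ e := by
  obtain ⟨b, rfl⟩ := hodd
  have hb : 1 ≤ b := by omega
  rcases e with _ | e
  · simp at h1; omega
  set h := 2 ^ e with hh
  have hh0 : 0 < h := Nat.two_pow_pos e
  have hP : 2 ^ (e + 1) = 2 * h := by rw [hh, pow_succ, mul_comm]
  rw [hP] at ho h1 ⊢
  obtain ⟨p, hp⟩ : ∃ p, 2 * h = p + 1 := ⟨2 * h - 1, by omega⟩
  rw [hp, Nat.add_sub_cancel] at h1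
  have hkey : (1 + o) * M ^ 2 ≤ p := by
    have e1 : (2 * b + 1) ^ 2 * M ^ 2 = M ^ 2 + o * M ^ 2 + p * (o * M ^ 2) := by rw [ho, hp]; ring
    nlinarith
  have ho1 : 1 ≤ o := by
    rcases Nat.eq_zero_or_pos o with rfl | h0
    · nlinarith
    · exact h0
  have he : 1 ≤ e := by
    rcases Nat.eq_zero_or_pos e with rfl | h0
    · rw [hh, pow_zero] at hp; nlinarith
    · exact h0
  have hhb : h ≤ 2 * b + 2 := by
    have hd : h ∣ 2 * b * (b + 1) := ⟨o, by nlinarith⟩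
    rcases Nat.even_or_odd b with hb2 | hb2
    · have hc : h.Coprime (b + 1) := (Nat.coprime_two_left.2 hb2.add_one).pow_left e
      exact (Nat.le_of_dvd (by omega) (hc.dvd_of_dvd_mul_right hd)).trans (by omega)
    · have hc : h.Coprime b := (Nat.coprime_two_left.2 hb2).pow_left e
      have hd' : h ∣ b * (2 * (b + 1)) := by rwa [← mul_assoc, mul_comm b 2]
      exact (Nat.le_of_dvd (by omega) (hc.dvd_of_dvd_mul_left hd')).trans (by omega)
  have hM1 : M = 1 := by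
    by_contra hne
    have hM4 : 4 ≤ M ^ 2 := by nlinarith [show 2 ≤ M by omega]
    have h3 : 4 * (1 + o) ≤ p := le_trans (by nlinarith) hkey
    nlinarith
  subst hM1
  have hlo : 2 * h ≤ 2 * b + 2 := by nlinarith
  have hhi : 2 * b + 2 ≤ 2 * h := by nlinarith
  exact ⟨by omega, rfl, by omega, by nlinarith⟩

/-- The structure theorem for one weight. -/
theorem key {k : Type w} [Field k] [IsAlgClosed k] {q : ℕ} [hq : Fact q.Prime] (hq2 : q ≠ 2)
    (h2k : (2 : k) ≠ 0) (hqk : (q : k) ≠ 0) {V : Type v} [AddCommGroup V] [Module k V] [FiniteDimensional k V]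
    {R : Type u} [Group R] [Finite R] (hR : IsPGroup q R) (A : Subgroup R) (hA : A ≤ Subgroup.center R)
    (hRA : ∀ s t : R, ⁅s, t⁆ ∈ A) (N : ℕ) (σ : MulAut R) (hσ : σ ^ 2 ^ N = 1)
    (hAσ : ∀ (i : ℕ), ∀ a ∈ A, (σ ^ i) a ∈ A) (L : R →* Module.End k V) (T : Module.End k V)
    (hT : T ^ 2 ^ N = 1) (hfix : ∀ v, T v = v → v = 0) (hTL : ∀ r, T * L r = L (σ r) * T)
    (χ : A →* kˣ) (W : Submodule k V) (hW : ∀ x, x ∈ W ↔ ∀ z : A, L (z : R) x = (χ z : k) • x)
    (hne : ∃ w ∈ W, w ≠ 0) :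
    ∃ j, j < N ∧ (∀ i, (∀ z : A, χ ⟨(σ ^ i) z, hAσ i z z.2⟩ = χ z) ↔ 2 ^ j ∣ i) ∧
      (∀ x ∈ W, (T ^ 2 ^ j) x ∈ W) ∧
      ((∀ r t : R, χ ⟨⁅t, r⁻¹ * (σ ^ 2 ^ (N - 1)) r⁆, hRA _ _⟩ = 1) ∨
        (1 < N - j ∧ (∃ e, q ^ e = 2 ^ (N - j) - 1) ∧
          (∀ r : R, r⁻¹ * (σ ^ 2 ^ (N - 1)) r ∈ A →
            ∀ t : R, χ ⟨⁅t, r⁻¹ * (σ ^ 2 ^ j) r⁆, hRA _ _⟩ = 1) ∧
          ∃ U : Submodule k V, U ≤ W ∧ Module.finrank k U = 2 ^ (N - j) - 1 ∧
            ∃ hU : ∀ x ∈ U, (T ^ 2 ^ j) x ∈ U, ∀ CT : Submodule k (Module.End k U),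
              (∀ X, X ∈ CT ↔ (T ^ 2 ^ j).restrict hU * X = X * (T ^ 2 ^ j).restrict hU) →
                Module.finrank k CT ≤ 2 ^ (N - j) - 1)) := by
  classical
  haveI : Fact (Nat.Prime 2) := ⟨Nat.prime_two⟩
  have hRk : ∀ (H : Type u) [Group H] [Finite H], IsPGroup q H → (Nat.card H : k) ≠ 0 := by
    intro H _ _ hH
    obtain ⟨a, ha⟩ := IsPGroup.iff_card.1 hH
    rw [ha, Nat.cast_pow]
    exact pow_ne_zero _ hqk
  obtain ⟨j, hj, hFx, hWT, hWfix⟩ := orbit_reduce Nat.prime_two σ hσ L T hT hfix hTL A hAσ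
    (hRk A (hR.to_subgroup A)) χ W hW hne
  refine ⟨j, hj, hFx, hWT, ?_⟩
  by_cases hleft : ∀ r t : R, χ ⟨⁅t, r⁻¹ * (σ ^ 2 ^ (N - 1)) r⁆, hRA _ _⟩ = 1
  · exact Or.inl hleft
  right
  set h := 2 ^ (N - 1) with hh
  set y := σ ^ h with hy
  have hjh : 2 ^ j ∣ h := pow_dvd_pow 2 (by omega)
  have hyy : ∀ r, y (y r) = r := fun r => by
    rw [hy, ← MulAut.mul_apply, ← pow_add, hh, ← two_mul, ← pow_succ', show N - 1 + 1 = N by omega, hσ,
      MulAut.one_apply]
  have hyσ : ∀ (i : ℕ) (r : R), (σ ^ i) (y r) = y ((σ ^ i) r) := fun i r => by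
    rw [hy, ← MulAut.mul_apply, ← MulAut.mul_apply, ← pow_add, ← pow_add, add_comm]
  have hcen : ∀ z ∈ A, ∀ t : R, t * z = z * t := fun z hz t => Subgroup.mem_center_iff.1 (hA hz) t
  have hunit : ∀ (H : Subgroup R) (f : H →* kˣ) (a b : H), f a ^ 2 = f b ^ 2 → f a = f b := by
    intro H f a b hab
    rw [← mul_inv_eq_one, ← map_inv, ← map_mul]
    have h1 : f (a * b⁻¹) ^ 2 = 1 := by rw [map_mul, map_inv, mul_pow, hab, inv_pow, mul_inv_cancel]
    obtain ⟨c, hc⟩ := hR ((a * b⁻¹ : H) : R)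
    have h2 : f (a * b⁻¹) ^ q ^ c = 1 := by
      rw [← map_pow, show (a * b⁻¹) ^ q ^ c = 1 from Subtype.ext (by rw [SubmonoidClass.coe_pow, hc]; rfl),
        map_one]
    exact orderOf_eq_one_iff.1 (Nat.eq_one_of_dvd_coprimes
      (((Nat.coprime_primes Nat.prime_two hq.out).2 (Ne.symm hq2)).pow_right c)
      (orderOf_dvd_of_pow_eq_one h1) (orderOf_dvd_of_pow_eq_one h2))
  -- the pairing
  set b : R → R → kˣ := fun t r => χ ⟨⁅t, r⁆, hRA t r⟩ with hb
  have hswap : ∀ t r, b r t = (b t r)⁻¹ := fun t r => by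
    simp only [hb]
    rw [← map_inv]
    exact congrArg χ (Subtype.ext (commutatorElement_inv t r).symm)
  have hbmul : ∀ t r s, b t (r * s) = b t r * b t s := fun t r s => by
    simp only [hb]
    rw [← map_mul]
    refine congrArg χ (Subtype.ext ?_)
    show ⁅t, r * s⁆ = ⁅t, r⁆ * ⁅t, s⁆
    calc ⁅t, r * s⁆ = ⁅t, r⁆ * (r * ⁅t, s⁆ * r⁻¹) := by simp only [commutatorElement_def]; group
      _ = _ := by rw [hcen _ (hRA t s) r, mul_inv_cancel_right]
  have hbmul' : ∀ t s r, b (t * s) r = b t r * b s r := fun t s r => by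
    rw [hswap r (t * s), hbmul, mul_inv, ← hswap, ← hswap]
  have hbA : ∀ t, ∀ a ∈ A, b t a = 1 := fun t a ha => by
    refine (congrArg χ (Subtype.ext ?_)).trans (map_one χ)
    exact commutatorElement_eq_one_iff_mul_comm.2 (hcen a ha t)
  have hbA' : ∀ t, ∀ a ∈ A, b a t = 1 := fun t a ha => by rw [hswap, hbA t a ha, inv_one]
  have hbσ : ∀ i, 2 ^ j ∣ i → ∀ t r, b ((σ ^ i) t) ((σ ^ i) r) = b t r := fun i hi t r => by
    simp only [hb]
    rw [← (hFx i).2 hi ⟨⁅t, r⁆, hRA t r⟩]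
    exact congrArg χ (Subtype.ext (map_commutatorElement (σ ^ i) t r).symm)
  have hbsq : ∀ t r, b t r * b t r = 1 → b t r = 1 := fun t r h1 =>
    (hunit A χ _ 1 (by rw [map_one, one_pow, pow_two]; exact h1)).trans (map_one χ)
  -- the quotient by `A`
  haveI : A.Normal := ⟨fun a ha g => by rw [hcen a ha g, mul_inv_cancel_right]; exact ha⟩
  letI : CommGroup (R ⧸ A) := { (inferInstance : Group (R ⧸ A)) with
    mul_comm := fun x z => by
      induction x using QuotientGroup.induction_on with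
      | _ s =>
        induction z using QuotientGroup.induction_on with
        | _ t =>
          rw [← QuotientGroup.mk_mul, ← QuotientGroup.mk_mul, QuotientGroup.eq]
          rw [show (s * t)⁻¹ * (t * s) = ⁅t⁻¹, s⁻¹⁆ by simp [commutatorElement_def]; group]
          exact hRA _ _ }
  have hyA : ∀ a ∈ A, y a ∈ A := fun a ha => hAσ h a ha
  have hmodA : ∀ s t : R, (s : R ⧸ A) = (t : R ⧸ A) → ∃ a ∈ A, t = s * a := fun s t hst =>
    ⟨s⁻¹ * t, QuotientGroup.eq.1 hst, by rw [mul_inv_cancel_left]⟩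
  -- the inverted part
  let R₁ : Subgroup R :=
    { carrier := {r | ((y r : R) : R ⧸ A) = ((r : R) : R ⧸ A)⁻¹}
      one_mem' := by simp
      mul_mem' := fun {s t} (hs : ((y s : R) : R ⧸ A) = (s : R ⧸ A)⁻¹)
          (ht : ((y t : R) : R ⧸ A) = (t : R ⧸ A)⁻¹) => by
        show ((y (s * t) : R) : R ⧸ A) = ((s * t : R) : R ⧸ A)⁻¹
        rw [map_mul, QuotientGroup.mk_mul, QuotientGroup.mk_mul, hs, ht, mul_inv]
      inv_mem' := fun {s} (hs : ((y s : R) : R ⧸ A) = (s : R ⧸ A)⁻¹) => by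
        show ((y s⁻¹ : R) : R ⧸ A) = ((s⁻¹ : R) : R ⧸ A)⁻¹
        rw [map_inv, QuotientGroup.mk_inv, QuotientGroup.mk_inv, hs] }
  have horth : ∀ f r, f⁻¹ * y f ∈ A → r ∈ R₁ → b f r = 1 := by
    intro f r hf hr
    obtain ⟨a', ha', he⟩ := hmodA r⁻¹ (y r) (hr.trans (QuotientGroup.mk_inv A r).symm).symm
    have h1 := hbσ h hjh f r
    rw [← hy, show y f = f * (f⁻¹ * y f) by rw [mul_inv_cancel_left], hbmul', hbA' _ _ hf, mul_one, he,
      hbmul, hbA _ a' ha', mul_one] at h1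
    refine hbsq f r ?_
    have h2 := hbmul f r r⁻¹
    rw [h1, mul_inv_cancel, show b f 1 = 1 from hbA f 1 (one_mem A)] at h2
    exact h2.symm
  let Rad : Subgroup R :=
    { carrier := {r | ∀ t, b t r = 1}
      one_mem' := fun t => hbA t 1 (one_mem A)
      mul_mem' := fun {s r} (hs : ∀ t, b t s = 1) (hr : ∀ t, b t r = 1) t => by rw [hbmul, hs, hr, one_mul]
      inv_mem' := fun {s} (hs : ∀ t, b t s = 1) t => by
        have h1 := hbmul t s s⁻¹
        rw [hs, one_mul, mul_inv_cancel, hbA t 1 (one_mem A)] at h1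
        exact h1.symm }
  have hnd : ∀ r ∈ R₁, (∀ t ∈ R₁, b t r = 1) → r ∈ Rad := by
    intro r hr hall t
    have hu : t * (y t)⁻¹ ∈ R₁ := by
      show ((y (t * (y t)⁻¹) : R) : R ⧸ A) = ((t * (y t)⁻¹ : R) : R ⧸ A)⁻¹
      rw [map_mul, map_inv, hyy, QuotientGroup.mk_mul, QuotientGroup.mk_mul, QuotientGroup.mk_inv,
        QuotientGroup.mk_inv, mul_inv, inv_inv, mul_comm]
    have hf : (t * y t)⁻¹ * y (t * y t) ∈ A := by
      rw [← QuotientGroup.eq, map_mul, hyy, QuotientGroup.mk_mul, QuotientGroup.mk_mul, mul_comm]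
    obtain ⟨a, ha, he⟩ := hmodA (t * t) (t * y t * (t * (y t)⁻¹)) (by
      simp only [QuotientGroup.mk_mul, QuotientGroup.mk_inv]
      rw [mul_mul_mul_comm, mul_inv_cancel, mul_one])
    have h1 : b (t * y t * (t * (y t)⁻¹)) r = 1 := by
      rw [hbmul', horth _ r hf hr, hall _ hu, one_mul]
    rw [he, hbmul', hbA' _ a ha, mul_one, hbmul'] at h1
    exact hbsq t r h1
  let Z₁ : Subgroup R := R₁ ⊓ Rad
  have hAR₁ : A ≤ R₁ := fun a ha => by
    show ((y a : R) : R ⧸ A) = (a : R ⧸ A)⁻¹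
    rw [(QuotientGroup.eq_one_iff a).2 ha, (QuotientGroup.eq_one_iff _).2 (hyA a ha), inv_one]
  have hARad : A ≤ Rad := fun a ha t => hbA t a ha
  have hAZ : A ≤ Z₁ := le_inf hAR₁ hARad
  -- invariance
  set σ' := σ ^ 2 ^ j with hσ'
  have hσ'i : ∀ i, σ' ^ i = σ ^ (2 ^ j * i) := fun i => by rw [hσ', ← pow_mul]
  have hσ'A : ∀ (i : ℕ), ∀ a ∈ A, (σ' ^ i) a ∈ A := fun i a ha => by rw [hσ'i]; exact hAσ _ a ha
  have hR₁σ : ∀ (i : ℕ), ∀ r ∈ R₁, (σ ^ i) r ∈ R₁ := by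
    intro i r (hr : ((y r : R) : R ⧸ A) = (r : R ⧸ A)⁻¹)
    show ((y ((σ ^ i) r) : R) : R ⧸ A) = (((σ ^ i) r : R) : R ⧸ A)⁻¹
    rw [← hyσ]
    rw [← QuotientGroup.mk_inv, QuotientGroup.eq] at hr ⊢
    rw [← map_inv (σ ^ i), ← map_inv (σ ^ i), ← map_mul]
    exact hAσ i _ hr
  have hRadσ : ∀ i, 2 ^ j ∣ i → ∀ r ∈ Rad, (σ ^ i) r ∈ Rad := by
    intro i hi r hr t
    obtain ⟨t, rfl⟩ := (σ ^ i).surjective t
    rw [hbσ i hi]
    exact hr t
  have hZ₁σ : ∀ (i : ℕ), ∀ r ∈ Z₁, (σ' ^ i) r ∈ Z₁ := fun i r hr => by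
    rw [hσ'i]
    exact ⟨hR₁σ _ r hr.1, hRadσ _ (dvd_mul_right _ _) r hr.2⟩
  -- the weight space
  have hWL : ∀ (r : R), ∀ x ∈ W, L r x ∈ W := by
    intro r x hx
    refine (hW _).2 fun z => ?_
    rw [← Module.End.mul_apply, ← map_mul, ← hcen z z.2 r, map_mul, Module.End.mul_apply, (hW x).1 hx z,
      map_smul]
  set T' := (T ^ 2 ^ j).restrict hWT with hT'
  set L' := subRep L W hWL with hL'
  have hconj : ∀ (t r : R) (x : W), L' t (L' r x) = (b t r : k) • L' r (L' t x) := by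
    intro t r x
    refine Subtype.ext ?_
    show L t (L r (x : V)) = (b t r : k) • L r (L t (x : V))
    rw [← Module.End.mul_apply, ← map_mul, show t * r = ⁅t, r⁆ * (r * t) by
      simp only [commutatorElement_def]; group, map_mul, map_mul, Module.End.mul_apply, Module.End.mul_apply]
    exact (hW _).1 (hWL r _ (hWL t _ x.2)) ⟨⁅t, r⁆, hRA t r⟩
  have hcommL : ∀ t r, b t r = 1 → L' t * L' r = L' r * L' t := fun t r htr =>
    LinearMap.ext fun x => by
      rw [Module.End.mul_apply, Module.End.mul_apply, hconj, htr, Units.val_one, one_smul]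
  obtain ⟨w₀, hw₀, hw₀0⟩ := hne
  haveI : Nontrivial W := ⟨⟨⟨w₀, hw₀⟩, 0, fun h1 => hw₀0 (congrArg Subtype.val h1)⟩⟩
  -- the radical part is scalar
  let f : Z₁ →* (Module.End k W)ˣ := (L'.comp Z₁.subtype).toHomUnits
  letI : CommGroup f.range := { (inferInstance : Group f.range) with
    mul_comm := by
      rintro ⟨_, s, rfl⟩ ⟨_, r, rfl⟩
      exact Subtype.ext (Units.ext (hcommL s r (r.2.2 s))) }
  haveI : Finite f.range := Finite.of_surjective _ f.rangeRestrict_surjective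
  have hfk : (Nat.card f.range : k) ≠ 0 :=
    CfsgLib.FpfAut.natCast_ne_zero_of_dvd (Subgroup.card_range_dvd f) (hRk Z₁ (hR.to_subgroup Z₁))
  obtain ⟨ψ₀, w₁, hw₁, hψ₀⟩ : ∃ (ψ : Z₁ →* kˣ) (x : W), x ≠ 0 ∧ ∀ r : Z₁, L' (r : R) x = (ψ r : k) • x := by
    by_contra hcon
    push Not at hcon
    have h1 := CfsgLib.FpfAut.eq_zero_of_eigen hfk ((Units.coeHom _).comp f.range.subtype)
      (1 : Module.End k W) fun ξ x hx => by
        by_contra hx0
        obtain ⟨r, hr⟩ := hcon (ξ.comp f.rangeRestrict) x hx0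
        exact hr (hx (f.rangeRestrict r))
    exact hw₀0 (congrArg Subtype.val (LinearMap.congr_fun h1 (⟨w₀, hw₀⟩ : W)))
  have hTTW : ∀ (i : ℕ) (x : W), (((T' ^ i) x : W) : V) = (T ^ (2 ^ j * i)) x := fun i x => by
    rw [hT', restrict_iter, pow_mul]
  have hnj : 2 ^ j * 2 ^ (N - j) = 2 ^ N := by rw [← pow_add, Nat.add_sub_cancel' hj.le]
  have hσ'P : σ' ^ 2 ^ (N - j) = 1 := by rw [hσ'i, hnj, hσ]
  have hT'P : T' ^ 2 ^ (N - j) = 1 := LinearMap.ext fun x => Subtype.ext (by rw [hTTW, hnj, hT]; rfl)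
  have hT'fix : ∀ x : W, T' x = x → x = 0 := fun x hx =>
    Subtype.ext (hWfix x x.2 (congrArg Subtype.val hx))
  have hT'L : ∀ r, T' * L' r = L' (σ' r) * T' := fun r =>
    LinearMap.ext fun x => Subtype.ext (LinearMap.congr_fun (twist_iter hTL (2 ^ j) r) x.1)
  obtain ⟨c, hc⟩ := hjh
  have hyσ' : σ' ^ c = y := by rw [hσ'i, hy, ← hc]
  have hext : ∀ (ψ : Z₁ →* kˣ) (x : W), x ≠ 0 → (∀ r : Z₁, L' (r : R) x = (ψ r : k) • x) →
      ∀ a : A, ψ ⟨a, hAZ a.2⟩ = χ a := by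
    intro ψ x hx hψ a
    refine Units.ext (smul_left_injective k hx ?_)
    show (ψ ⟨a, hAZ a.2⟩ : k) • x = (χ a : k) • x
    rw [← hψ]
    exact Subtype.ext ((hW _).1 x.2 a)
  have hsq : ∀ (ψ : Z₁ →* kˣ) (x : W), x ≠ 0 → (∀ r : Z₁, L' (r : R) x = (ψ r : k) • x) →
      ∀ z : Z₁, ∃ a : A, ψ z ^ 2 = χ a ∧ (y z * z : R) = a := by
    intro ψ x hx hψ z
    have ha : (y z * z : R) ∈ A := by
      rw [← QuotientGroup.eq_one_iff, QuotientGroup.mk_mul, show ((y z : R) : R ⧸ A) = (z : R ⧸ A)⁻¹ from z.2.1,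
        inv_mul_cancel]
    refine ⟨⟨_, ha⟩, ?_, rfl⟩
    let W' : Submodule k W :=
      { carrier := {x | ∀ r : Z₁, L' (r : R) x = (ψ r : k) • x}
        add_mem' := fun {s t} hs ht r => by rw [map_add, hs r, ht r, smul_add]
        zero_mem' := fun r => by rw [map_zero, smul_zero]
        smul_mem' := fun c x hx r => by rw [map_smul, hx r, smul_comm] }
    obtain ⟨j₂, hj₂, hFx₂, -, -⟩ := orbit_reduce Nat.prime_two σ' hσ'P L' T' hT'P hT'fix hT'L Z₁ hZ₁σ
      (hRk Z₁ (hR.to_subgroup Z₁)) ψ W' (fun _ => Iff.rfl) ⟨x, hψ, hx⟩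
    have h2 : c = 2 ^ (N - j - 1) := by
      refine Nat.eq_of_mul_eq_mul_left (Nat.two_pow_pos j) ?_
      rw [← hc, hh, ← pow_add]
      congr 1
      omega
    have h1 := (hFx₂ c).2 (h2 ▸ pow_dvd_pow 2 (by omega)) z
    have hyz : (y z : R) ∈ Z₁ := hyσ' ▸ hZ₁σ c z z.2
    have h3 : ψ ⟨y z, hyz⟩ = ψ z :=
      (congrArg ψ (Subtype.ext (DFunLike.congr_fun hyσ' (z : R)).symm)).trans h1
    rw [← hext ψ x hx hψ, pow_two]
    calc ψ z * ψ z = ψ ⟨y z, hyz⟩ * ψ z := by rw [h3]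
      _ = _ := by rw [← map_mul]; rfl
  have hscal : ∀ z : Z₁, L' (z : R) = (ψ₀ z : k) • 1 := by
    intro z
    rw [← sub_eq_zero]
    refine CfsgLib.FpfAut.eq_zero_of_eigen hfk ((Units.coeHom _).comp f.range.subtype) _ fun ξ x hx => ?_
    rcases eq_or_ne x 0 with rfl | hx0
    · rw [map_zero]
    have hξ : ∀ r : Z₁, L' (r : R) x = ((ξ.comp f.rangeRestrict) r : k) • x := fun r => hx (f.rangeRestrict r)
    obtain ⟨a, ha, hae⟩ := hsq _ x hx0 hξ z
    obtain ⟨a', ha', hae'⟩ := hsq _ w₁ hw₁ hψ₀ z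
    have haa : a = a' := Subtype.ext (hae.symm.trans hae')
    have heq : (ξ.comp f.rangeRestrict) z = ψ₀ z := by
      rw [← mul_inv_eq_one]
      refine ((hunit Z₁ ((ξ.comp f.rangeRestrict) * ψ₀⁻¹) z 1 ?_).trans (map_one _))
      rw [map_one, one_pow, MonoidHom.mul_apply, MonoidHom.inv_apply, mul_pow, inv_pow, ha, ha', haa,
        mul_inv_cancel]
    rw [LinearMap.sub_apply, hξ z, heq, LinearMap.smul_apply, Module.End.one_apply, sub_self]
  -- the group of inverted elements modulo the scalar part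
  set Z := Z₁.subgroupOf R₁ with hZdef
  haveI : Z.Normal := ⟨fun z hz g => by
    refine Subgroup.mem_subgroupOf.2 ?_
    rw [show ((g * z * g⁻¹ : R₁) : R) = ⁅(g : R), (z : R)⁆ * (z : R) by simp [commutatorElement_def, mul_assoc]]
    exact mul_mem (hAZ (hRA _ _)) hz⟩
  have hR₁map : R₁.map (σ' : R ≃* R).toMonoidHom = R₁ := Subgroup.eq_of_le_of_card_ge
    (by rintro _ ⟨s, hs, rfl⟩; exact hR₁σ _ s hs)
    (Subgroup.card_map_of_injective (f := (σ' : R ≃* R).toMonoidHom) σ'.injective).ge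
  let α : MulAut R₁ := ((σ' : R ≃* R).subgroupMap R₁).trans (MulEquiv.subgroupCongr hR₁map)
  have hαi : ∀ (i : ℕ) (s : R₁), (((α ^ i) s : R₁) : R) = (σ' ^ i) (s : R) := by
    intro i s
    induction i with
    | zero => rfl
    | succ i ih => rw [pow_succ', MulAut.mul_apply, pow_succ', MulAut.mul_apply, ← ih]; rfl
  have hαP : α ^ 2 ^ (N - j) = 1 := MulEquiv.ext fun s => Subtype.ext (by rw [hαi, hσ'P]; rfl)
  have hZα : ∀ z ∈ Z, α z ∈ Z := fun z hz => by
    refine Subgroup.mem_subgroupOf.2 ?_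
    rw [← pow_one α, hαi]
    exact hZ₁σ 1 _ hz
  have hreg : ∀ i, 0 < i → i < 2 ^ (N - j) → ∀ s : R₁, s⁻¹ * (α ^ i) s ∈ Z → s ∈ Z := by
    intro i hi0 hiP s hs
    have hmul : ∀ m, (s : R)⁻¹ * (σ' ^ (i * m)) (s : R) ∈ Z₁ := by
      intro m
      induction m with
      | zero => simp
      | succ m ih =>
        have h1 : (s : R)⁻¹ * (σ' ^ i) (s : R) ∈ Z₁ := by
          have := Subgroup.mem_subgroupOf.1 hs
          rwa [Subgroup.coe_mul, Subgroup.coe_inv, hαi] at this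
        have h2 := mul_mem h1 (hZ₁σ i _ ih)
        rw [map_mul, map_inv, mul_assoc, mul_inv_cancel_left, ← MulAut.mul_apply, ← pow_add] at h2
        rwa [Nat.mul_succ, add_comm]
    obtain ⟨m, -, hm⟩ := Nat.exists_mul_mod_eq_gcd (n := i) (k := 2 ^ (N - j))
      (lt_of_le_of_lt (Nat.gcd_le_left _ hi0) hiP)
    obtain ⟨e, he, hge⟩ := (Nat.dvd_prime_pow Nat.prime_two).1 (Nat.gcd_dvd_right i (2 ^ (N - j)))
    have heN : e < N - j := by
      refine lt_of_le_of_ne he fun h1 => ?_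
      have := Nat.le_of_dvd hi0 (Nat.gcd_dvd_left i (2 ^ (N - j)))
      rw [hge, h1] at this
      omega
    have hy' : σ' ^ (i * (m * 2 ^ (N - j - 1 - e))) = y := by
      have h1 : σ' ^ (i * m) = σ' ^ (2 ^ e) := by
        conv_lhs => rw [← Nat.mod_add_div (i * m) (2 ^ (N - j)), pow_add, pow_mul σ' (2 ^ (N - j)), hσ'P,
          one_pow, mul_one, hm, hge]
      rw [← mul_assoc, pow_mul, h1, ← pow_mul, ← pow_add, hσ'i, ← pow_add, hy, hh]
      congr 2
      omega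
    have h3 := hmul (m * 2 ^ (N - j - 1 - e))
    rw [hy'] at h3
    have h4 : (s : R) * (s : R) ∈ Z₁ := by
      obtain ⟨a, ha, hae⟩ := hmodA (s : R)⁻¹ (y s)
        ((QuotientGroup.mk_inv A (s : R)).trans (s.2 : ((y s : R) : R ⧸ A) = _).symm)
      rw [hae] at h3
      have h5 := inv_mem (mul_mem h3 (inv_mem (hAZ ha)))
      simpa [mul_assoc] using h5
    refine Subgroup.mem_subgroupOf.2 ?_
    obtain ⟨d, hd⟩ := hR (s : R)
    obtain ⟨m', hm'⟩ := ((hq.out.odd_of_ne_two hq2).pow (n := d))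
    have h6 : ((s : R) * (s : R)) ^ (m' + 1) = (s : R) := by
      rw [← pow_two, ← pow_mul, show 2 * (m' + 1) = (2 * m' + 1) + 1 by ring, ← hm', pow_succ, hd, one_mul]
    rw [← h6]
    exact pow_mem h4 _
  have hSZ : ∀ s t : R₁, ⁅s, t⁆ ∈ Z := fun s t => Subgroup.mem_subgroupOf.2 (hAZ (hRA (s : R) (t : R)))
  let χ₁ : Z →* kˣ := MonoidHom.mk' (fun z => ψ₀ ⟨((z : R₁) : R), Subgroup.mem_subgroupOf.1 z.2⟩)
    fun s t => by rw [← map_mul]; rfl
  have hR₁k := hRk R₁ (hR.to_subgroup R₁)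
  have hχ₁ : ∀ z : Z, L' ((z : R₁) : R) = (χ₁ z : k) • 1 := fun z => hscal ⟨_, Subgroup.mem_subgroupOf.1 z.2⟩
  have hnd₁ : ∀ s : R₁, s ∉ Z → ∃ t : R₁, χ₁ ⟨⁅t, s⁆, hSZ t s⟩ ≠ 1 := by
    intro s hs
    by_contra hcon
    push Not at hcon
    refine hs (Subgroup.mem_subgroupOf.2 ⟨s.2, hnd (s : R) s.2 fun t ht => ?_⟩)
    rw [← hcon ⟨t, ht⟩]
    exact (hext ψ₀ w₁ hw₁ hψ₀ ⟨⁅t, (s : R)⁆, hRA _ _⟩).symm
  -- a minimal invariant piece
  let Good : Submodule k V → Prop := fun U => U ≤ W ∧ (∃ x ∈ U, x ≠ 0) ∧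
    (∀ (s : R₁), ∀ x ∈ U, L (s : R) x ∈ U) ∧ ∀ x ∈ U, (T ^ 2 ^ j) x ∈ U
  have hexU : ∃ n, ∃ U, Good U ∧ Module.finrank k U = n :=
    ⟨_, W, ⟨le_rfl, ⟨w₀, hw₀, hw₀0⟩, fun s => hWL s, hWT⟩, rfl⟩
  obtain ⟨U, ⟨hUW, ⟨u₀, hu₀, hu₀0⟩, hUL, hUT⟩, hUn⟩ := Nat.find_spec hexU
  have hUmin : ∀ U', Good U' → U' ≤ U → U' = U := fun U' hU' hle =>
    Submodule.eq_of_le_of_finrank_le hle (hUn ▸ Nat.find_min' hexU ⟨U', hU', rfl⟩)
  haveI : Nontrivial U := ⟨⟨⟨u₀, hu₀⟩, 0, fun h1 => hu₀0 (congrArg Subtype.val h1)⟩⟩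
  set TU := (T ^ 2 ^ j).restrict hUT with hTU
  let LU : R₁ →* Module.End k U := subRep (L.comp R₁.subtype) U hUL
  let C₀ : Submodule k (Module.End k U) :=
    { carrier := {X | ∀ s, LU s * X = X * LU s}
      add_mem' := fun {X Y} hX hY s => by rw [mul_add, add_mul, hX s, hY s]
      zero_mem' := fun s => by rw [mul_zero, zero_mul]
      smul_mem' := fun c X hX s => by rw [mul_smul_comm, smul_mul_assoc, hX s] }
  let CT : Submodule k (Module.End k U) :=
    { carrier := {X | TU * X = X * TU}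
      add_mem' := fun {X Y} (hX : TU * X = X * TU) (hY : TU * Y = Y * TU) => by
        show TU * (X + Y) = (X + Y) * TU
        rw [mul_add, add_mul, hX, hY]
      zero_mem' := by show TU * 0 = 0 * TU; rw [mul_zero, zero_mul]
      smul_mem' := fun c X (hX : TU * X = X * TU) => by
        show TU * (c • X) = (c • X) * TU
        rw [mul_smul_comm, smul_mul_assoc, hX] }
  have hTUP : TU ^ 2 ^ (N - j) = 1 := LinearMap.ext fun x => Subtype.ext (by
    rw [hTU, restrict_iter, ← pow_mul, hnj, hT]; rfl)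
  have hTUfix : ∀ x : U, TU x = x → x = 0 := fun x hx =>
    Subtype.ext (hWfix x (hUW x.2) (congrArg Subtype.val hx))
  obtain ⟨⟨a, ha⟩, hdvd, heqU, hupU⟩ := count_regular (k := k) (E := U) (P := 2 ^ (N - j)) (Nat.two_pow_pos _)
    hR₁k α hαP Z hZα hSZ hreg LU TU hTUP
    (fun s => LinearMap.ext fun x => Subtype.ext (by
      have h1 := LinearMap.congr_fun (twist_iter hTL (2 ^ j) (s : R)) x.1
      show (T ^ 2 ^ j) (L (s : R) (x : V)) = L ((α s : R₁) : R) ((T ^ 2 ^ j) (x : V))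
      exact h1))
    χ₁ (fun z => LinearMap.ext fun x => Subtype.ext (by
      have h1 := congrArg Subtype.val (LinearMap.congr_fun (hχ₁ z) ⟨x.1, hUW x.2⟩)
      exact h1))
    hnd₁ C₀ (fun _ => Iff.rfl) CT (fun _ => Iff.rfl)
  -- Schur
  have hschur : Module.finrank k ↥(C₀ ⊓ CT) ≤ 1 := by
    refine le_trans (Submodule.finrank_mono (t := Submodule.span k {(1 : Module.End k U)}) ?_)
      (finrank_span_singleton one_ne_zero).le
    rintro X ⟨hX₀, hXT : TU * X = X * TU⟩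
    obtain ⟨μ, hμ⟩ := Module.End.exists_eigenvalue X
    obtain ⟨x, hx, hx0⟩ := hμ.exists_hasEigenvector
    have hU' : (Module.End.eigenspace X μ).map U.subtype = U := by
      refine hUmin _ ⟨(Submodule.map_subtype_le U _).trans hUW, ⟨x, ⟨x, hx, rfl⟩,
        fun h1 => hx0 (Subtype.ext h1)⟩, ?_, ?_⟩ (Submodule.map_subtype_le U _)
      · rintro s _ ⟨v, hv, rfl⟩
        refine ⟨LU s v, ?_, rfl⟩
        rw [SetLike.mem_coe, Module.End.mem_eigenspace_iff] at hv ⊢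
        rw [← Module.End.mul_apply, ← hX₀ s, Module.End.mul_apply, hv, map_smul]
      · rintro _ ⟨v, hv, rfl⟩
        refine ⟨TU v, ?_, rfl⟩
        rw [SetLike.mem_coe, Module.End.mem_eigenspace_iff] at hv ⊢
        rw [← Module.End.mul_apply, ← hXT, Module.End.mul_apply, hv, map_smul]
    refine Submodule.mem_span_singleton.2 ⟨μ, LinearMap.ext fun v => ?_⟩
    obtain ⟨v', hv', hvv⟩ : (v : V) ∈ (Module.End.eigenspace X μ).map U.subtype := hU'.symm ▸ v.2
    rw [show v' = v from Subtype.ext hvv] at hv'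
    rw [LinearMap.smul_apply, Module.End.one_apply]
    exact (Module.End.mem_eigenspace_iff.1 hv').symm
  -- the numbers
  have hPk : ((2 ^ (N - j) : ℕ) : k) ≠ 0 := by
    rw [Nat.cast_pow]
    exact pow_ne_zero _ (by exact_mod_cast h2k)
  obtain ⟨c', hc'⟩ := IsPGroup.iff_card.1 ((hR.to_subgroup R₁).to_quotient Z)
  obtain ⟨m, -, hm⟩ := (Nat.dvd_prime_pow hq.out).1 (show a ∣ q ^ c' from hc' ▸ ha ▸ dvd_pow_self a two_ne_zero)
  have hodd : Odd a := hm ▸ (hq.out.odd_of_ne_two hq2).pow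
  have hZtop : Z ≠ ⊤ := by
    intro htop
    push Not at hleft
    obtain ⟨r, t, hrt⟩ := hleft
    refine hrt ?_
    have hu : r⁻¹ * y r ∈ R₁ := by
      show ((y (r⁻¹ * y r) : R) : R ⧸ A) = ((r⁻¹ * y r : R) : R ⧸ A)⁻¹
      rw [map_mul, map_inv, hyy, QuotientGroup.mk_mul, QuotientGroup.mk_mul, QuotientGroup.mk_inv,
        QuotientGroup.mk_inv, mul_inv, inv_inv, mul_comm]
    have h1 : (⟨_, hu⟩ : R₁) ∈ Z := htop ▸ Subgroup.mem_top _
    exact (Subgroup.mem_subgroupOf.1 h1).2 t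
  have hN1 : 1 < Nat.card (R₁ ⧸ Z) := by
    rw [← Subgroup.index_eq_card]
    exact Subgroup.one_lt_index_of_ne_top hZtop
  have ha1 : 1 < a := by
    by_contra h1
    interval_cases a <;> simp [ha] at hN1
  obtain ⟨o, ho⟩ := hdvd
  have hsqa : a ^ 2 = 1 + o * 2 ^ (N - j) := by rw [← ha, mul_comm]; omega
  have hod : (Nat.card (R₁ ⧸ Z) - 1) / 2 ^ (N - j) = o := by
    rw [ho, Nat.mul_div_cancel_left _ (Nat.two_pow_pos _)]
  rw [hod] at hupU
  rw [ha] at heqU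
  obtain ⟨M, hM⟩ : a ∣ Module.finrank k U :=
    (Nat.pow_dvd_pow_iff two_ne_zero).1 (heqU ▸ dvd_mul_right _ _)
  have hd : Module.finrank k C₀ = M ^ 2 := by
    rw [hM, mul_pow] at heqU
    exact (Nat.eq_of_mul_eq_mul_left (pow_pos (by omega) 2) heqU).symm
  have hM0 : 0 < M := by
    rcases Nat.eq_zero_or_pos M with rfl | h1
    · exact absurd hM (by rw [mul_zero]; exact Module.finrank_pos.ne')
    · exact h1
  have hCT' : Module.finrank k CT ≤ 1 + o * M ^ 2 := by rw [← hd]; omega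
  have hA1 := sq_finrank_le_of_fpf (Nat.two_pow_pos _) hPk TU hTUP hTUfix CT fun X hX => hX
  have hA2 := (sq_finrank_le_card_mul (Nat.two_pow_pos _) hPk TU hTUP
    (Polynomial.nthRoots (2 ^ (N - j)) (1 : k)).toFinset (fun μ v hv hv0 => by
      rw [Multiset.mem_toFinset, Polynomial.mem_nthRoots (Nat.two_pow_pos _)]
      have h1 : ∀ i : ℕ, (TU ^ i) v = μ ^ i • v := by
        intro i
        induction i with
        | zero => simp
        | succ i ih => rw [pow_succ', Module.End.mul_apply, ih, map_smul, hv, smul_smul, pow_succ]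
      have h2 := h1 (2 ^ (N - j))
      rw [hTUP, Module.End.one_apply] at h2
      exact smul_left_injective k hv0 (by simpa using h2.symm)) CT fun X hX => hX).2
  rw [hM] at hA1 hA2
  obtain ⟨he1, hM1, haP, hoP⟩ := count_arith (e := N - j) ha1 hodd hsqa hM0
    (by rw [← mul_pow]; exact hA1.trans (Nat.mul_le_mul_left _ hCT')) (hA2.trans hCT')
  subst hM1
  refine ⟨he1, ⟨m, by omega⟩, ?_, U, hUW, by omega, hUT, fun CT' hCT'' => ?_⟩
  swap
  · rw [show CT' = CT from Submodule.ext fun X => hCT'' X]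
    rw [one_pow, mul_one] at hCT'
    omega
  -- back to the weight space
  intro r hr
  let CW : Submodule k (Module.End k W) :=
    { carrier := {X | ∀ s : R₁, L' (s : R) * X = X * L' (s : R)}
      add_mem' := fun {X Y} hX hY s => by rw [mul_add, add_mul, hX s, hY s]
      zero_mem' := fun s => by rw [mul_zero, zero_mul]
      smul_mem' := fun c X hX s => by rw [mul_smul_comm, smul_mul_assoc, hX s] }
  let CTW : Submodule k (Module.End k W) :=
    { carrier := {X | T' * X = X * T'}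
      add_mem' := fun {X Y} (hX : T' * X = X * T') (hY : T' * Y = Y * T') => by
        show T' * (X + Y) = (X + Y) * T'
        rw [mul_add, add_mul, hX, hY]
      zero_mem' := by show T' * 0 = 0 * T'; rw [mul_zero, zero_mul]
      smul_mem' := fun c X (hX : T' * X = X * T') => by
        show T' * (c • X) = (c • X) * T'
        rw [mul_smul_comm, smul_mul_assoc, hX] }
  obtain ⟨-, -, heqW, hupW⟩ := count_regular (k := k) (E := W) (P := 2 ^ (N - j)) (Nat.two_pow_pos _)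
    hR₁k α hαP Z hZα hSZ hreg (L'.comp R₁.subtype) T' hT'P (fun s => hT'L (s : R)) χ₁ hχ₁ hnd₁
    CW (fun _ => Iff.rfl) CTW (fun _ => Iff.rfl)
  have hW1 := sq_finrank_le_of_fpf (Nat.two_pow_pos _) hPk T' hT'P hT'fix CTW fun X hX => hX
  rw [hod] at hupW
  rw [ha] at heqW
  have hle : Module.finrank k CW ≤ Module.finrank k ↥(CW ⊓ CTW) := by
    obtain ⟨p, hp⟩ : ∃ p, 2 ^ (N - j) = p + 2 := ⟨o, hoP.symm⟩
    rw [hp, show p + 2 - 1 = p + 1 by omega] at hW1
    have h1 : a = p + 1 := by omega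
    have h2 : o = p := by omega
    rw [heqW, h1] at hW1
    rw [h2] at hupW
    have h3 : (p + 1) * ((p + 1) * Module.finrank k CW) ≤
        (p + 1) * (Module.finrank k ↥(CW ⊓ CTW) + p * Module.finrank k CW) := by
      calc _ = (p + 1) ^ 2 * Module.finrank k CW := by ring
        _ ≤ _ := hW1
        _ ≤ _ := Nat.mul_le_mul_left _ hupW
    have h4 := Nat.le_of_mul_le_mul_left h3 (by omega)
    rw [add_mul, one_mul] at h4
    omega
  have hCWT : CW ⊓ CTW = CW := Submodule.eq_of_le_of_finrank_le inf_le_left hle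
  have hrC : L' r ∈ CW ⊓ CTW := by
    rw [hCWT]
    intro s
    refine hcommL _ _ ?_
    rw [hswap, horth r s hr s.2, inv_one]
  have hsame : L' (σ' r) = L' r := by
    have h1 : L' (σ' r) * T' = L' r * T' := by rw [← hT'L]; exact hrC.2
    have h2 := congrArg (· * T' ^ (2 ^ (N - j) - 1)) h1
    simpa only [mul_assoc, ← pow_succ', Nat.sub_add_cancel (Nat.one_le_two_pow), hT'P, mul_one] using h2
  intro t
  have hz : L' (r⁻¹ * σ' r) = 1 := by rw [map_mul, hsame, ← map_mul, inv_mul_cancel, map_one]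
  have h1 : L' ⁅t, r⁻¹ * σ' r⁆ = 1 := by
    have hz' : L' (r⁻¹ * σ' r)⁻¹ = 1 := by
      have := congrArg (L' (r⁻¹ * σ' r)⁻¹ * ·) hz
      simpa only [← map_mul, inv_mul_cancel, map_one, mul_one] using this.symm
    rw [commutatorElement_def, map_mul, map_mul, map_mul, hz, hz', mul_one, mul_one, ← map_mul,
      mul_inv_cancel, map_one]
  refine Units.ext (smul_left_injective k hw₀0 ?_)
  show (χ ⟨⁅t, r⁻¹ * σ' r⁆, hRA _ _⟩ : k) • w₀ = ((1 : kˣ) : k) • w₀
  rw [← (hW w₀).1 hw₀ ⟨⁅t, r⁻¹ * σ' r⁆, hRA _ _⟩, Units.val_one, one_smul]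
  exact congrArg Subtype.val (LinearMap.congr_fun h1 ⟨w₀, hw₀⟩)

end CfsgLib.GrossHeight
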