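import Mathlib
import Cfsg.Agent.GrossHeight.Key
import Cfsg.Agent.PGroup.Critical
import Cfsg.Agent.FpfAut.Ward
import Cfsg.Agent.Constrained.Fitting
import Cfsg.Agent.Eq.Def_Solvable

/-!
# The second level: an operator killed by `(T - 1) (T ^ (P / 2) + 1)`

Such an operator of two-power order `P` normalizing a coprime `t`-group of linear maps has its involutory
power centralizing that group, unless `P = 4` and `t = 3`; and a group of odd order generated by elements
inverted by an involutory automorphism which centralizes a Sylow subgroup for every prime but `q` is a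
`q`-group.
-/

set_option autoImplicit false

open Cfsg
open scoped commutatorElement

namespace CfsgLib.GrossHeight

universe u v w

/-- The second level of the argument. -/
theorem spectral {k : Type w} [Field k] [IsAlgClosed k] {E : Type v} [AddCommGroup E] [Module k E]
    [FiniteDimensional k E] {t : ℕ} [ht : Fact t.Prime] (ht2 : t ≠ 2) (h2k : (2 : k) ≠ 0) (htk : (t : k) ≠ 0)
    {X : Type u} [Group X] [Finite X] (hX : IsPGroup t X) (N : ℕ) (hN : 2 ≤ N) (α : MulAut X)
    (hα : α ^ 2 ^ N = 1) (L : X →* Module.End k E) (hinj : Function.Injective L) (T : Module.End k E)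
    (hT : T ^ 2 ^ N = 1) (hTL : ∀ x, T * L x = L (α x) * T)
    (hrel : ∀ v, T ((T ^ 2 ^ (N - 1)) v + v) = (T ^ 2 ^ (N - 1)) v + v) (hfour : N = 2 → t ≠ 3) :
    ∀ x, (α ^ 2 ^ (N - 1)) x = x := by
  classical
  set h := 2 ^ (N - 1) with hh
  have heven : Even h := Nat.even_pow.2 ⟨even_two, by omega⟩
  have hh2 : h * 2 = 2 ^ N := by rw [hh, ← pow_succ, show N - 1 + 1 = N by omega]
  have hLinv' : ∀ x, L x⁻¹ * L x = 1 := fun x => by rw [← map_mul, inv_mul_cancel, map_one]
  -- the operator without fixed vectors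
  have hST : (-T) ^ 2 ^ N = 1 := by rw [(Nat.even_pow.2 ⟨even_two, by omega⟩ : Even (2 ^ N)).neg_pow, hT]
  have hSfix : ∀ v, (-T) v = v → v = 0 := by
    intro v hv
    rw [LinearMap.neg_apply, neg_eq_iff_eq_neg] at hv
    have h1 : ∀ i : ℕ, (T ^ i) v = (-1 : k) ^ i • v := by
      intro i
      induction i with
      | zero => simp
      | succ i ih =>
        rw [pow_succ', Module.End.mul_apply, ih, map_smul, hv, pow_succ, mul_smul, neg_one_smul]
    have h2 := hrel v
    rw [h1, heven.neg_one_pow, one_smul, map_add, hv] at h2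
    have h4 : ((2 : k) * 2) • v = 0 := by
      rw [mul_smul, two_smul, two_smul]
      nth_rewrite 1 [← h2]
      abel
    exact (smul_eq_zero.1 h4).resolve_left (mul_ne_zero h2k h2k)
  -- the critical subgroup
  obtain ⟨C, hC⟩ := CfsgLib.PGroup.exists_criticalSubgroup hX
  haveI := hC.characteristic
  have hCα : C.map (α : X ≃* X).toMonoidHom = C := Subgroup.characteristic_iff_map_eq.1 hC.characteristic α
  let β : MulAut C := ((α : X ≃* X).subgroupMap C).trans (MulEquiv.subgroupCongr hCα)
  have hβi : ∀ (i : ℕ) (c : C), (((β ^ i) c : C) : X) = (α ^ i) (c : X) := by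
    intro i c
    induction i with
    | zero => rfl
    | succ i ih => rw [pow_succ', MulAut.mul_apply, pow_succ', MulAut.mul_apply, ← ih]; rfl
  set A := Subgroup.center C with hA
  have hAβ : ∀ (i : ℕ), ∀ a ∈ A, (β ^ i) a ∈ A := by
    intro i a ha
    refine Subgroup.mem_center_iff.2 fun c => ?_
    obtain ⟨c, rfl⟩ := (β ^ i).surjective c
    rw [← map_mul, ← map_mul, Subgroup.mem_center_iff.1 ha c]
  let LC : C →* Module.End k E := L.comp C.subtype
  have hβ : β ^ 2 ^ N = 1 := MulEquiv.ext fun c => Subtype.ext (by rw [hβi, hα]; rfl)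
  have hSL : ∀ c, (-T) * LC c = LC (β c) * (-T) := fun c => by
    rw [neg_mul, mul_neg]
    exact congrArg Neg.neg (hTL (c : X))
  letI : CommGroup A := { (inferInstance : Group A) with
    mul_comm := fun a b => Subtype.ext (Subgroup.mem_center_iff.1 b.2 a) }
  have hAk : (Nat.card A : k) ≠ 0 := by
    obtain ⟨e, he⟩ := IsPGroup.iff_card.1 ((hX.to_subgroup C).to_subgroup A)
    rw [he, Nat.cast_pow]
    exact pow_ne_zero _ htk
  let Wt : (A →* kˣ) → Submodule k E := fun χ =>
    { carrier := {x | ∀ z : A, LC (z : C) x = (χ z : k) • x}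
      add_mem' := fun {a b} ha hb z => by rw [map_add, ha z, hb z, smul_add]
      zero_mem' := fun z => by rw [map_zero, smul_zero]
      smul_mem' := fun c x hx z => by rw [map_smul, hx z, smul_comm] }
  have hmain : ∀ (χ : A →* kˣ) (x : E), x ≠ 0 → (∀ z : A, LC (z : C) x = (χ z : k) • x) →
      (∀ a : A, χ ⟨(β ^ h) a, hAβ h a a.2⟩ = χ a) ∧
        ∀ r s : C, χ ⟨⁅s, r⁻¹ * (β ^ h) r⁆, hC.class_two _ _⟩ = 1 := by
    intro χ x hx hxχ
    obtain ⟨j, hj, hFx, hWT, hor⟩ := key ht2 h2k htk (hX.to_subgroup C) A le_rfl hC.class_two N β hβ hAβ LC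
      (-T) hST hSfix hSL χ (Wt χ) (fun _ => Iff.rfl) ⟨x, hxχ, hx⟩
    refine ⟨(hFx h).2 (pow_dvd_pow 2 (by omega)), ?_⟩
    rcases hor with hl | ⟨hNj, ⟨e, he⟩, -, U, hUW, hUn, hU, hUC⟩
    · exact hl
    rcases Nat.eq_zero_or_pos j with rfl | hj0
    · -- the operator itself acts on the piece
      exfalso
      rw [pow_zero, pow_one] at hU
      simp only [pow_zero, pow_one, Nat.sub_zero] at hUC hUn he
      set S := (-T).restrict hU with hS
      have hSi : ∀ (i : ℕ) (u : U), (((S ^ i) u : U) : E) = ((-T) ^ i) u :=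
        CfsgLib.ShultGrossH65.restrict_iter (-T) hU
      let CT : Submodule k (Module.End k U) :=
        { carrier := {Y | S * Y = Y * S}
          add_mem' := fun {Y Z} (hY : S * Y = Y * S) (hZ : S * Z = Z * S) => by
            show S * (Y + Z) = (Y + Z) * S
            rw [mul_add, add_mul, hY, hZ]
          zero_mem' := by show S * 0 = 0 * S; rw [mul_zero, zero_mul]
          smul_mem' := fun c Y (hY : S * Y = Y * S) => by
            show S * (c • Y) = (c • Y) * S
            rw [mul_smul_comm, smul_mul_assoc, hY] }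
      let Λ : Finset k := insert (-1) (Polynomial.nthRoots h (-1 : k)).toFinset
      have hΛ : Λ.card ≤ h + 1 := (Finset.card_insert_le _ _).trans (Nat.add_le_add_right
        ((Multiset.toFinset_card_le _).trans (Polynomial.card_nthRoots _ _)) 1)
      have hk0 : ((2 ^ N : ℕ) : k) ≠ 0 := by
        rw [Nat.cast_pow]
        exact pow_ne_zero _ (by exact_mod_cast h2k)
      have h1 := (sq_finrank_le_card_mul (Nat.two_pow_pos N) hk0 S
        (LinearMap.ext fun u => Subtype.ext (by rw [hSi, hST]; rfl)) Λ (fun μ v hv hv0 => by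
          have hv0' : (v : E) ≠ 0 := fun h0 => hv0 (Subtype.ext h0)
          have h2 : (-T) (v : E) = μ • (v : E) := congrArg Subtype.val hv
          have h3 : ∀ i : ℕ, ((-T) ^ i) (v : E) = μ ^ i • (v : E) := by
            intro i
            induction i with
            | zero => simp
            | succ i ih => rw [pow_succ', Module.End.mul_apply, ih, map_smul, h2, smul_smul, pow_succ]
          have h4 := hrel (v : E)
          have h5 : T (v : E) = -(μ • (v : E)) := by rw [← h2, LinearMap.neg_apply, neg_neg]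
          rw [show T ^ h = (-T) ^ h from (heven.neg_pow T).symm, h3, map_add, map_smul, h5] at h4
          have h6 : (-(μ ^ h * μ + μ + μ ^ h + 1)) • (v : E) = 0 := by
            rw [smul_neg, smul_smul] at h4
            rw [neg_smul, add_smul, add_smul, add_smul, one_smul, neg_eq_zero]
            have h7 := sub_eq_zero.2 h4.symm
            rw [← h7]
            abel
          have h8 : (μ + 1) * (μ ^ h + 1) = 0 := by
            have := (smul_eq_zero.1 h6).resolve_right hv0'
            linear_combination (-1 : k) * this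
          rcases mul_eq_zero.1 h8 with h9 | h9
          · rw [eq_neg_of_add_eq_zero_left h9]
            exact Finset.mem_insert_self _ _
          · refine Finset.mem_insert_of_mem ?_
            rw [Multiset.mem_toFinset, Polynomial.mem_nthRoots (Nat.two_pow_pos _)]
            exact eq_neg_of_add_eq_zero_left h9) CT fun Y hY => hY).1
      have h2 := hUC CT fun Y => Iff.rfl
      rw [hUn] at h1
      have hp : 0 < 2 ^ N - 1 := by
        have : 2 ^ 2 ≤ 2 ^ N := Nat.pow_le_pow_right (by omega) hN
        omega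
      have h3 : 2 ^ N - 1 ≤ h + 1 := by
        refine Nat.le_of_mul_le_mul_right ?_ hp
        rw [← pow_two]
        exact h1.trans (Nat.mul_le_mul hΛ h2)
      have hN2 : N = 2 := by
        by_contra hne
        have : 2 ^ 2 ≤ h := Nat.pow_le_pow_right (by omega) (by omega)
        omega
      have h3' : t ^ e = 3 := by rw [he, hN2]; norm_num
      rcases e with _ | e
      · simp at h3'
      · exact hfour hN2 ((Nat.prime_dvd_prime_iff_eq ht.out Nat.prime_three).1 (h3' ▸ dvd_pow_self t (by omega)))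
    · -- the operator moves the weight
      intro r s
      obtain ⟨c, hc⟩ : 2 ^ j ∣ h := pow_dvd_pow 2 (by omega)
      have hWh : ∀ v ∈ Wt χ, (T ^ h) v ∈ Wt χ := by
        intro v hv
        rw [← heven.neg_pow T, hc, pow_mul]
        clear hc
        induction c with
        | zero => simpa using hv
        | succ c ih => rw [pow_succ', Module.End.mul_apply]; exact hWT _ ih
      have hneg : ∀ v ∈ Wt χ, (T ^ h) v + v = 0 := by
        intro v hv
        by_contra hu
        have huW : (T ^ h) v + v ∈ Wt χ := add_mem (hWh v hv) hv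
        have hFx1 : ∀ z : A, χ ⟨(β ^ 1) z, hAβ 1 z z.2⟩ = χ z := by
          intro z
          refine Units.ext (smul_left_injective k hu ?_)
          show (χ ⟨(β ^ 1) z, hAβ 1 z z.2⟩ : k) • _ = (χ z : k) • _
          rw [← huW ⟨(β ^ 1) z, hAβ 1 z z.2⟩]
          show LC ((β ^ 1) (z : C)) _ = _
          have h1 := LinearMap.congr_fun (hTL ((z : C) : X)) ((T ^ h) v + v)
          rw [Module.End.mul_apply, Module.End.mul_apply, hrel] at h1
          rw [pow_one]
          refine h1.symm.trans ?_
          show T (LC (z : C) _) = _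
          rw [huW z, map_smul, hrel]
        have h2 := (hFx 1).1 hFx1
        exact absurd (Nat.le_of_dvd one_pos h2) (not_le.2 (Nat.one_lt_two_pow hj0.ne'))
      have hWL : ∀ (c : C), ∀ v ∈ Wt χ, LC c v ∈ Wt χ := by
        intro c v hv z
        rw [← Module.End.mul_apply, ← map_mul, ← Subgroup.mem_center_iff.1 z.2 c, map_mul,
          Module.End.mul_apply, hv z, map_smul]
      have hfixW : ∀ (c : C), ∀ v ∈ Wt χ, LC ((β ^ h) c) v = LC c v := by
        intro c v hv
        have h1 := LinearMap.congr_fun (CfsgLib.ShultGrossH65.twist_iter hTL h (c : X)) v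
        rw [Module.End.mul_apply, Module.End.mul_apply, ← hβi] at h1
        rw [eq_neg_of_add_eq_zero_left (hneg v hv), map_neg] at h1
        exact (neg_injective ((eq_neg_of_add_eq_zero_left (hneg _ (hWL c v hv))).symm.trans h1)).symm
      have hz : ∀ v ∈ Wt χ, LC (r⁻¹ * (β ^ h) r) v = v := fun v hv => by
        rw [map_mul, Module.End.mul_apply, hfixW r v hv, ← Module.End.mul_apply, ← map_mul, inv_mul_cancel,
          map_one, Module.End.one_apply]
      have hz' : ∀ v ∈ Wt χ, LC (r⁻¹ * (β ^ h) r)⁻¹ v = v := fun v hv => by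
        conv_lhs => rw [← hz v hv]
        rw [← Module.End.mul_apply, ← map_mul, inv_mul_cancel, map_one, Module.End.one_apply]
      refine Units.ext (smul_left_injective k hx ?_)
      show (χ ⟨⁅s, r⁻¹ * (β ^ h) r⁆, hC.class_two _ _⟩ : k) • x = ((1 : kˣ) : k) • x
      rw [← hxχ ⟨⁅s, r⁻¹ * (β ^ h) r⁆, hC.class_two _ _⟩, Units.val_one, one_smul]
      show LC ⁅s, r⁻¹ * (β ^ h) r⁆ x = x
      rw [commutatorElement_def]
      simp only [map_mul LC (_ * _) _, Module.End.mul_apply]
      rw [hz' x hxχ, map_mul LC s, Module.End.mul_apply, hz _ (hWL _ x hxχ), ← Module.End.mul_apply,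
        ← map_mul, mul_inv_cancel, map_one, Module.End.one_apply]
  have hsep : ∀ a b : A, (∀ (χ : A →* kˣ) (x : E), x ≠ 0 → (∀ z : A, LC (z : C) x = (χ z : k) • x) → χ a = χ b) →
      a = b := by
    intro a b hab
    refine Subtype.ext (Subtype.ext (hinj (sub_eq_zero.1 (CfsgLib.FpfAut.eq_zero_of_eigen hAk (LC.comp A.subtype)
      (LC (a : C) - LC (b : C)) fun χ x hx => ?_))))
    rcases eq_or_ne x 0 with rfl | hx0
    · rw [map_zero]
    · have hx' : ∀ z : A, LC (z : C) x = (χ z : k) • x := hx
      rw [LinearMap.sub_apply, hx' a, hx' b, hab χ x hx0 hx', sub_self]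
  have hfixA : ∀ a : A, (β ^ h) (a : C) = a := fun a =>
    congrArg Subtype.val (hsep ⟨_, hAβ h a a.2⟩ a fun χ x hx hxχ => (hmain χ x hx hxχ).1 a)
  have hyy : ∀ c, (β ^ h) ((β ^ h) c) = c := fun c => by
    rw [← MulAut.mul_apply, ← pow_add, ← mul_two, hh2, hβ, MulAut.one_apply]
  have hCfix : ∀ c : C, (β ^ h) c = c := by
    intro c
    set z := c⁻¹ * (β ^ h) c with hz
    have hzA : z ∈ A := by
      refine Subgroup.mem_center_iff.2 fun s => ?_
      rw [← commutatorElement_eq_one_iff_mul_comm]
      exact congrArg Subtype.val (hsep ⟨⁅s, z⁆, hC.class_two _ _⟩ 1 fun χ x hx hxχ => by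
        rw [map_one]; exact (hmain χ x hx hxχ).2 c s)
    have hyc : (β ^ h) c = c * z := by rw [hz, mul_inv_cancel_left]
    have h1 := hyy c
    rw [hyc, map_mul, hfixA ⟨z, hzA⟩, hyc, mul_assoc, mul_eq_left] at h1
    obtain ⟨e, he⟩ := (hX.to_subgroup C) z
    have h2 : orderOf z = 1 := Nat.eq_one_of_dvd_coprimes
      (((Nat.coprime_primes Nat.prime_two ht.out).2 (Ne.symm ht2)).pow_right e)
      (orderOf_dvd_of_pow_eq_one (show z ^ 2 = 1 by rw [pow_two]; exact h1))
      (orderOf_dvd_of_pow_eq_one he)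
    rw [hyc, orderOf_eq_one_iff.1 h2, mul_one]
  have hfin := hC.aut_eq_one hX (σ := α ^ h)
    (Nat.Coprime.coprime_dvd_left (orderOf_dvd_of_pow_eq_one (show (α ^ h) ^ 2 = 1 by rw [← pow_mul, hh2, hα]))
      ((Nat.coprime_primes Nat.prime_two ht.out).2 (Ne.symm ht2)))
    (fun c hc => by rw [← hβi h ⟨c, hc⟩, hCfix])
  intro x
  rw [hfin, MulAut.one_apply]

/-- A group of odd order generated by elements inverted by an involutory automorphism centralizing a Sylow
`t`-subgroup for all `t ≠ q` is a `q`-group. -/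
theorem isPGroup_of_inverted {G : Type u} [Group G] [Finite G] [Group.IsSolvable G] (hodd : Odd (Nat.card G))
    (y : MulAut G) (hy : y ^ 2 = 1) {q : ℕ} [Fact q.Prime]
    (hfix : ∀ t : ℕ, t.Prime → t ≠ q → ∃ P : Sylow t G, ∀ x ∈ (P : Subgroup G), y x = x)
    (hgen : Subgroup.closure {g | y g = g⁻¹} = ⊤) : IsPGroup q G := by
  classical
  set K := pCore q G with hK
  have hKy : K.map (y : G ≃* G).toMonoidHom = K := CfsgLib.Constrained.pCore_map y q
  let π := QuotientGroup.mk' K
  let yB : MulAut (G ⧸ K) := QuotientGroup.congr K K y hKy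
  have hyB : ∀ g : G, yB • (π g) = π (y g) := fun g => rfl
  have hyB2 : yB ^ 2 = 1 := MulEquiv.ext fun x => by
    obtain ⟨g, rfl⟩ := QuotientGroup.mk_surjective x
    show π (y (y g)) = π g
    rw [← MulAut.mul_apply, ← pow_two, hy, MulAut.one_apply]
  have hBodd : Nat.Coprime 2 (Nat.card (G ⧸ K)) :=
    Nat.coprime_two_left.2 (hodd.of_dvd_nat (Subgroup.card_quotient_dvd_card K))
  set F := fittingSubgroup (G ⧸ K) with hF
  let Fix : Subgroup F :=
    { carrier := {x | yB • (x : G ⧸ K) = x}
      one_mem' := smul_one _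
      mul_mem' := fun {a b} (ha : yB • (a : G ⧸ K) = a) (hb : yB • (b : G ⧸ K) = b) => by
        show yB • ((a * b : F) : G ⧸ K) = _
        rw [Subgroup.coe_mul, smul_mul', ha, hb]
      inv_mem' := fun {a} (ha : yB • (a : G ⧸ K) = a) => by
        show yB • ((a⁻¹ : F) : G ⧸ K) = _
        rw [Subgroup.coe_inv, smul_inv', ha] }
  have hFixtop : Fix = ⊤ := by
    refine CfsgLib.Constrained.eq_top_of_forall_sylow_le Fix fun t ht => ?_
    haveI : Fact t.Prime := ⟨ht⟩
    obtain ⟨Q⟩ : Nonempty (Sylow t F) := inferInstance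
    refine ⟨Q, fun x hx => ?_⟩
    have hxc : (x : G ⧸ K) ∈ pCore t (G ⧸ K) :=
      CfsgLib.Constrained.map_sylow_le_pCore inferInstance inferInstance Q ⟨x, hx, rfl⟩
    show yB • (x : G ⧸ K) = x
    by_cases htq : t = q
    · subst htq
      rw [CfsgLib.Constrained.pCore_quotient_pCore, Subgroup.mem_bot] at hxc
      rw [hxc, smul_one]
    · obtain ⟨P, hP⟩ := hfix t ht htq
      let P' := P.mapSurjective (QuotientGroup.mk'_surjective K)
      have hle : pCore t (G ⧸ K) ≤ (P' : Subgroup (G ⧸ K)) :=
        le_sup_right.trans_eq (P'.is_maximal' (P'.isPGroup'.to_sup_of_normal_right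
          (CfsgLib.Constrained.isPGroup_pCore (p := t) (G := G ⧸ K))) le_sup_left)
      obtain ⟨g, hg, hgx⟩ := hle hxc
      rw [← hgx]
      show yB • π g = π g
      rw [hyB, hP g hg]
  have hFfix : ∀ x ∈ F, yB • x = x := fun x hx =>
    (hFixtop ▸ Subgroup.mem_top (⟨x, hx⟩ : F) : (⟨x, hx⟩ : F) ∈ Fix)
  have hall : ∀ x : G ⧸ K, yB • x = x := fun x =>
    CfsgLib.FpfAut.smul_eq_self_of_inv_mul (p := 2) hyB2 hBodd (hFfix _
      (CfsgLib.Constrained.centralizer_fitting_le (Subgroup.mem_centralizer_iff.2 fun f hf =>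
        CfsgLib.FpfAut.commute_inv_mul_smul hFfix
          (fun g hg => Subgroup.Normal.conj_mem inferInstance g hg _) hf)))
  have htop : K = ⊤ := by
    refine top_le_iff.1 (hgen.symm.le.trans ((Subgroup.closure_le _).2 fun g (hg : y g = g⁻¹) => ?_))
    show g ∈ K
    refine (QuotientGroup.eq_one_iff g).1 ?_
    have h1 := hall (π g)
    rw [hyB, hg, map_inv] at h1
    have h2 : (π g) ^ 2 = 1 := by rw [pow_two]; nth_rewrite 1 [← h1]; exact inv_mul_cancel _
    exact orderOf_eq_one_iff.1 (Nat.eq_one_of_dvd_coprimes hBodd (orderOf_dvd_of_pow_eq_one h2)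
      (orderOf_dvd_natCard (π g)))
  have h1 : IsPGroup q K := CfsgLib.Constrained.isPGroup_pCore
  rw [htop] at h1
  exact h1.of_equiv Subgroup.topEquiv

end CfsgLib.GrossHeight
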