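import Mathlib
import Cfsg.Agent.GrossHeight.Spectral
import Cfsg.Agent.FpfAut.Internal
import Cfsg.Agent.FpfAut.Module
import Cfsg.Agent.Coprime.External

/-!
# The involutory power and the cores

For a group `H` of odd order with a faithful module and an operator of order dividing `2 ^ N` without fixed
vectors, the elements of the normal subgroup generated by the `x⁻¹ * y • x`, `y` the involutory power, of order
prime to `q` centralize `O_q(H)`.
-/

set_option autoImplicit false

open Cfsg CfsgLib.FpfAut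
open scoped commutatorElement

namespace CfsgLib.GrossHeight

universe u v

variable {A : Type v} [Group A] {H : Type u} [Group H] [MulDistribMulAction A H]

/-- The subgroup generated by the `x⁻¹ * y • x`. -/
def moved (y : A) : Subgroup H := Subgroup.closure (Set.range fun x : H => x⁻¹ * y • x)

theorem inv_mul_smul_mem_moved (y : A) (x : H) : x⁻¹ * y • x ∈ moved y :=
  Subgroup.subset_closure ⟨x, rfl⟩

theorem moved_normal (y : A) : (moved y : Subgroup H).Normal := by
  refine ⟨fun d hd g => ?_⟩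
  induction hd using Subgroup.closure_induction with
  | mem z hz =>
    obtain ⟨x, rfl⟩ := hz
    have h1 := mul_mem (inv_mul_smul_mem_moved y (x * g⁻¹)) (inv_mem (inv_mul_smul_mem_moved y g⁻¹))
    simp only [smul_mul', mul_inv_rev, inv_inv] at h1
    convert h1 using 1
    group
  | one => simp
  | mul u v _ _ hu hv => rw [show g * (u * v) * g⁻¹ = g * u * g⁻¹ * (g * v * g⁻¹) by group]; exact mul_mem hu hv
  | inv u _ hu => rw [show g * u⁻¹ * g⁻¹ = (g * u * g⁻¹)⁻¹ by group]; exact inv_mem hu

theorem smul_moved {y b : A} (hby : b * y = y * b) {d : H} (hd : d ∈ moved y) : b • d ∈ moved y := by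
  induction hd using Subgroup.closure_induction with
  | mem z hz =>
    obtain ⟨x, rfl⟩ := hz
    rw [smul_mul', smul_inv', ← mul_smul, hby, mul_smul]
    exact inv_mul_smul_mem_moved y (b • x)
  | one => simp
  | mul u v _ _ hu hv => rw [smul_mul']; exact mul_mem hu hv
  | inv u _ hu => rw [smul_inv']; exact inv_mem hu

variable [Finite H]

set_option maxHeartbeats 1000000 in
/-- The elements of `moved y` of order prime to `q` centralize `O_q(H)`. -/
theorem commute_pCore_of_coprime {W : Type u} [AddCommGroup W] [Finite W] [DistribMulAction A W]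
    [DistribMulAction H W] [Group.IsSolvable H] {r : ℕ} [hr : Fact r.Prime] (hr2 : r ≠ 2)
    (hM : IsOpModule r A H W) (hodd : Odd (Nat.card H)) (a : A) (N : ℕ) (hN : 0 < N) (ha : a ^ 2 ^ N = 1)
    (hW : ∀ w : W, a • w = w → w = 0) {q : ℕ} [hq : Fact q.Prime] {d : H}
    (hd : d ∈ moved (H := H) (a ^ 2 ^ (N - 1))) (hdq : (orderOf d).Coprime q) :
    ∀ s ∈ pCore q H, d * s = s * d := by
  classical
  set hh := 2 ^ (N - 1) with hhdef
  set y := a ^ hh with hy
  have hh2 : hh * 2 = 2 ^ N := by rw [hhdef, ← pow_succ, show N - 1 + 1 = N by omega]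
  set S : Subgroup H := pCore q H with hS
  by_cases hS1 : S = ⊥
  · intro s hs
    rw [hS1, Subgroup.mem_bot] at hs
    rw [hs, mul_one, one_mul]
  have hSA : IsInv A S := fun b x hx =>
    (CfsgLib.Constrained.pCore_map (MulDistribMulAction.toMulEquiv H b) q).le ⟨x, hx, rfl⟩
  have hSq : IsPGroup q S := CfsgLib.Constrained.isPGroup_pCore
  have hqH : q ∣ Nat.card H := by
    obtain ⟨e, he⟩ := IsPGroup.iff_card.1 hSq
    have h0 : e ≠ 0 := fun h0 => hS1 (Subgroup.eq_bot_of_card_eq _ (by rw [he, h0, pow_zero]))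
    exact (dvd_pow_self q h0).trans (he ▸ Subgroup.card_subgroup_dvd_card S)
  have hq2 : q ≠ 2 := fun h2 =>
    (Nat.not_even_iff_odd.2 hodd) (even_iff_two_dvd.2 (h2 ▸ hqH))
  have hqr : q ≠ r := fun h => hS1 (hM.eq_bot_of_isPGroup inferInstance hSA (h ▸ hSq))
  -- the critical subgroup
  obtain ⟨C, hC⟩ := CfsgLib.PGroup.exists_criticalSubgroup hSq
  haveI := hC.characteristic
  set R : Subgroup H := C.map S.subtype with hR
  have hRA : IsInv A R := isInv_map_of_characteristic hSA C
  haveI hRn : R.Normal := inferInstance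
  have hRq : IsPGroup q R := (hSq.to_subgroup C).map S.subtype
  have hRcl : ∀ s t : R, ⁅s, t⁆ ∈ Subgroup.center R := by
    rintro ⟨_, s, hs, rfl⟩ ⟨_, t, ht, rfl⟩
    refine Subgroup.mem_center_iff.2 ?_
    rintro ⟨_, u, hu, rfl⟩
    exact Subtype.ext (congrArg (fun x : C => ((x : S) : H))
      (Subgroup.mem_center_iff.1 (hC.class_two ⟨s, hs⟩ ⟨t, ht⟩) ⟨u, hu⟩))
  have hRpow : ∀ s : R, s ^ q ∈ Subgroup.center R := by
    rintro ⟨_, s, hs, rfl⟩
    refine Subgroup.mem_center_iff.2 ?_
    rintro ⟨_, u, hu, rfl⟩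
    exact Subtype.ext (congrArg (fun x : C => ((x : S) : H))
      (Subgroup.mem_center_iff.1 (hC.pow_mem_center ⟨s, hs⟩) ⟨u, hu⟩))
  set Z : Subgroup H := (Subgroup.center R).map R.subtype with hZ
  haveI hZn : Z.Normal := inferInstance
  have hZA : IsInv A Z := isInv_map_of_characteristic hRA (Subgroup.center R)
  -- the module over an algebraically closed field
  let k := AlgebraicClosure (ZMod r)
  haveI : CharP k r := charP_of_injective_algebraMap (algebraMap (ZMod r) k).injective r
  haveI := finiteDimensional_addMonoidHom (k := k) (W := W)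
  have hk : ∀ l : ℕ, l.Prime → l ≠ r → (l : k) ≠ 0 := fun l hl hlr h =>
    hlr ((Nat.prime_dvd_prime_iff_eq hr.out hl).1 ((CharP.cast_eq_zero_iff k r l).1 h)).symm
  have h2k : (2 : k) ≠ 0 := by exact_mod_cast hk 2 Nat.prime_two hr2.symm
  let ρ : H →* Module.End k (W →+ k) :=
    { toFun := fun s =>
        { toFun := fun f => f.comp (DistribSMul.toAddMonoidHom W s⁻¹)
          map_add' := fun f g => rfl
          map_smul' := fun c f => rfl }
      map_one' := LinearMap.ext fun f => AddMonoidHom.ext fun v => by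
        show f ((1 : H)⁻¹ • v) = f v
        rw [inv_one, one_smul]
      map_mul' := fun s t => LinearMap.ext fun f => AddMonoidHom.ext fun v => by
        show f ((s * t)⁻¹ • v) = f (t⁻¹ • s⁻¹ • v)
        rw [mul_inv_rev, mul_smul] }
  let T : Module.End k (W →+ k) :=
    { toFun := fun f => f.comp (DistribSMul.toAddMonoidHom W a⁻¹)
      map_add' := fun f g => rfl
      map_smul' := fun c f => rfl }
  have hTi : ∀ (i : ℕ) (f : W →+ k) (v : W), (T ^ i) f v = f ((a⁻¹) ^ i • v) := by
    intro i
    induction i with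
    | zero => intro f v; simp
    | succ i ih =>
      intro f v
      rw [pow_succ', Module.End.mul_apply, pow_succ, mul_smul]
      exact ih f (a⁻¹ • v)
  have hT : T ^ 2 ^ N = 1 := LinearMap.ext fun f => AddMonoidHom.ext fun v => by
    rw [hTi, inv_pow, ha, inv_one, one_smul, Module.End.one_apply]
  have hTfix : ∀ f, T f = f → f = 0 := by
    intro f hf
    let δ : W → W := fun v => a • v - v
    have hδ : Function.Injective δ := fun v w h => by
      refine sub_eq_zero.1 (hW _ ?_)
      rw [smul_sub]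
      exact sub_eq_sub_iff_sub_eq_sub.1 h
    refine AddMonoidHom.ext fun v => ?_
    obtain ⟨u, rfl⟩ := Finite.injective_iff_surjective.1 hδ v
    have h1 : f (a⁻¹ • a • u) = f (a • u) := DFunLike.congr_fun hf (a • u)
    rw [inv_smul_smul] at h1
    show f (a • u - u) = 0
    rw [map_sub, h1, sub_self]
  have hρinj : Function.Injective ρ := by
    intro s t hst
    refine inv_injective (mul_inv_eq_one.1 (hM.faithful _ fun w => ?_))
    rw [inv_inv, mul_smul]
    by_contra hne
    obtain ⟨f, hf⟩ := exists_addHom_apply_ne k hM.exponent (sub_ne_zero.2 hne)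
    refine hf ?_
    rw [map_sub, sub_eq_zero]
    have h1 : f (s⁻¹ • t • w) = f (t⁻¹ • t • w) := DFunLike.congr_fun (LinearMap.congr_fun hst f) (t • w)
    rwa [inv_smul_smul] at h1
  -- the operator on `R`
  have hbij : Function.Bijective fun s : R => (⟨a • (s : H), hRA a s s.2⟩ : R) :=
    Finite.injective_iff_bijective.1 fun s t h =>
      Subtype.ext ((MulAction.injective a) (congrArg Subtype.val h))
  let σ : MulAut R := MulEquiv.ofBijective
    (MonoidHom.mk' (fun s : R => (⟨a • (s : H), hRA a s s.2⟩ : R))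
      fun s t => Subtype.ext (smul_mul' a (s : H) t)) hbij
  have hσi : ∀ (i : ℕ) (s : R), (((σ ^ i) s : R) : H) = a ^ i • (s : H) := by
    intro i s
    induction i with
    | zero => simp
    | succ i ih =>
      rw [pow_succ', MulAut.mul_apply, pow_succ', mul_smul, ← ih]
      rfl
  have hσ : σ ^ 2 ^ N = 1 := MulEquiv.ext fun s => Subtype.ext (by rw [hσi, ha, one_smul]; rfl)
  set A₀ := Subgroup.center R with hA₀
  have hAσ : ∀ (i : ℕ), ∀ c ∈ A₀, (σ ^ i) c ∈ A₀ := by
    intro i c hc
    refine Subgroup.mem_center_iff.2 fun s => ?_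
    obtain ⟨s, rfl⟩ := (σ ^ i).surjective s
    rw [← map_mul, ← map_mul, Subgroup.mem_center_iff.1 hc s]
  let L : R →* Module.End k (W →+ k) := ρ.comp R.subtype
  have hTL : ∀ s, T * L s = L (σ s) * T := fun s => LinearMap.ext fun f => AddMonoidHom.ext fun v => by
    show f ((s : H)⁻¹ • a⁻¹ • v) = f (a⁻¹ • (a • (s : H))⁻¹ • v)
    rw [hM.compat, smul_inv', inv_smul_smul]
  letI : CommGroup A₀ := { (inferInstance : Group A₀) with
    mul_comm := fun s t => Subtype.ext (Subgroup.mem_center_iff.1 t.2 s) }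
  have hAk : (Nat.card A₀ : k) ≠ 0 := by
    obtain ⟨e, he⟩ := IsPGroup.iff_card.1 (hRq.to_subgroup A₀)
    rw [he, Nat.cast_pow]
    exact pow_ne_zero _ (hk q hq.out hqr)
  have hsep : ∀ s t : A₀, (∀ (χ : A₀ →* kˣ) (x : W →+ k), x ≠ 0 →
      (∀ z : A₀, L (z : R) x = (χ z : k) • x) → χ s = χ t) → s = t := by
    intro s t hst
    refine Subtype.ext (Subtype.ext (hρinj (sub_eq_zero.1 (eq_zero_of_eigen hAk (L.comp A₀.subtype)
      (L (s : R) - L (t : R)) fun χ x hx => ?_))))
    rcases eq_or_ne x 0 with rfl | hx0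
    · rw [map_zero]
    · have hx' : ∀ z : A₀, L (z : R) x = (χ z : k) • x := hx
      rw [LinearMap.sub_apply, hx' s, hx' t, hst χ x hx0 hx', sub_self]
  let Wt : (A₀ →* kˣ) → Submodule k (W →+ k) := fun χ =>
    { carrier := {x | ∀ z : A₀, L (z : R) x = (χ z : k) • x}
      add_mem' := fun {a b} ha hb z => by rw [map_add, ha z, hb z, smul_add]
      zero_mem' := fun z => by rw [map_zero, smul_zero]
      smul_mem' := fun c x hx z => by rw [map_smul, hx z, smul_comm] }
  have hkey := fun (χ : A₀ →* kˣ) (x : W →+ k) (hx : x ≠ 0) (hxχ : ∀ z : A₀, L (z : R) x = (χ z : k) • x) =>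
    key hq2 h2k (hk q hq.out hqr) hRq A₀ le_rfl hRcl N σ hσ hAσ L T hT hTfix hTL χ (Wt χ) (fun _ => Iff.rfl)
      ⟨x, hxχ, hx⟩
  -- the involution and the moved subgroup fix the centre of `R`
  have hyZ : ∀ b ∈ Z, y • b = b := by
    rintro _ ⟨c, hc, rfl⟩
    have h1 : (⟨(σ ^ hh) c, hAσ hh c hc⟩ : A₀) = ⟨c, hc⟩ := hsep _ _ fun χ x hx hxχ => by
      obtain ⟨j, hj, hFx, -⟩ := hkey χ x hx hxχ
      exact (hFx hh).2 (pow_dvd_pow 2 (by omega)) ⟨c, hc⟩
    have h2 := congrArg (fun z : A₀ => ((z : R) : H)) h1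
    simp only [hσi] at h2
    exact h2
  have hDZ : ∀ g ∈ moved (H := H) y, ∀ b ∈ Z, g * b = b * g := by
    intro g hg
    induction hg using Subgroup.closure_induction with
    | mem z hz =>
      obtain ⟨x, rfl⟩ := hz
      intro b hb
      have h1 : y • (x * b * x⁻¹) = x * b * x⁻¹ := hyZ _ (hZn.conj_mem b hb x)
      rw [smul_mul', smul_mul', smul_inv', hyZ b hb] at h1
      calc x⁻¹ * y • x * b = x⁻¹ * (y • x * b * (y • x)⁻¹) * y • x := by group
        _ = x⁻¹ * (x * b * x⁻¹) * y • x := by rw [h1]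
        _ = _ := by group
    | one => intro b _; rw [one_mul, mul_one]
    | mul u v _ _ hu hv => intro b hb; rw [mul_assoc, hv b hb, ← mul_assoc, hu b hb, mul_assoc]
    | inv u _ hu => intro b hb; rw [inv_mul_eq_iff_eq_mul, ← mul_assoc, hu b hb, mul_inv_cancel_right]
  set D : Subgroup H := moved y with hD
  let cj : D → R → R := fun g s => ⟨(g : H) * s * (g : H)⁻¹, hRn.conj_mem _ s.2 _⟩
  have hcjA : ∀ (g : D) (c : R), c ∈ A₀ → cj g c = c := fun g c hc => Subtype.ext (by
    show (g : H) * c * (g : H)⁻¹ = c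
    rw [hDZ g g.2 c ⟨c, hc, rfl⟩, mul_inv_cancel_right])
  -- triviality modulo each radical
  have hrad : ∀ (χ : A₀ →* kˣ) (x : W →+ k), x ≠ 0 → (∀ z : A₀, L (z : R) x = (χ z : k) • x) →
      ∀ s t : R, χ ⟨⁅t, cj ⟨d, hd⟩ s * s⁻¹⁆, hRcl _ _⟩ = 1 := by
    intro χ x hx hxχ
    obtain ⟨j, hj, hFx, -, hor⟩ := hkey χ x hx hxχ
    let Rad : Subgroup R :=
      { carrier := {s | ∀ t, χ ⟨⁅t, s⁆, hRcl t s⟩ = 1}
        one_mem' := fun t => (congrArg χ (Subtype.ext (commutatorElement_one_right t))).trans (map_one χ)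
        mul_mem' := fun {s u} (hs : ∀ t, χ ⟨⁅t, s⁆, hRcl t s⟩ = 1) (hu : ∀ t, χ ⟨⁅t, u⁆, hRcl t u⟩ = 1) t => by
          calc χ ⟨⁅t, s * u⁆, hRcl _ _⟩ = χ ⟨⁅t, s⁆, hRcl _ _⟩ * χ ⟨⁅t, u⁆, hRcl _ _⟩ := by
                rw [← map_mul]
                refine congrArg χ (Subtype.ext ?_)
                show ⁅t, s * u⁆ = ⁅t, s⁆ * ⁅t, u⁆
                calc ⁅t, s * u⁆ = ⁅t, s⁆ * (s * ⁅t, u⁆ * s⁻¹) := by simp only [commutatorElement_def]; group
                  _ = _ := by rw [Subgroup.mem_center_iff.1 (hRcl t u) s, mul_inv_cancel_right]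
            _ = 1 := by rw [hs, hu, one_mul]
        inv_mem' := fun {s} (hs : ∀ t, χ ⟨⁅t, s⁆, hRcl t s⟩ = 1) t => by
          have h1 : χ ⟨⁅t, s⁻¹⁆, hRcl _ _⟩ = (χ ⟨⁅t, s⁆, hRcl _ _⟩)⁻¹ := by
            rw [← map_inv]
            refine congrArg χ (Subtype.ext ?_)
            show ⁅t, s⁻¹⁆ = ⁅t, s⁆⁻¹
            calc ⁅t, s⁻¹⁆ = s⁻¹ * ⁅t, s⁆⁻¹ * s := by simp only [commutatorElement_def]; group
              _ = _ := by
                rw [mul_assoc, ← Subgroup.mem_center_iff.1 (inv_mem (hRcl t s)) s, inv_mul_cancel_left]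
          rw [h1, hs, inv_one] }
    have hcenRad : A₀ ≤ Rad := fun c hc t =>
      (congrArg χ (Subtype.ext (commutatorElement_eq_one_iff_mul_comm.2
        (Subgroup.mem_center_iff.1 hc t)))).trans (map_one χ)
    haveI : Rad.Normal := ⟨fun s hs g => by
      rw [show g * s * g⁻¹ = ⁅g, s⁆ * s by simp [commutatorElement_def, mul_assoc]]
      exact mul_mem (hcenRad (hRcl g s)) hs⟩
    have hRadσ : ∀ i, 2 ^ j ∣ i → ∀ s ∈ Rad, (σ ^ i) s ∈ Rad := by
      intro i hi s hs t
      obtain ⟨t, rfl⟩ := (σ ^ i).surjective t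
      rw [← hs t, ← (hFx i).2 hi ⟨⁅t, s⁆, hRcl t s⟩]
      exact congrArg χ (Subtype.ext (map_commutatorElement (σ ^ i) t s).symm)
    have hRadD : ∀ (g : D), ∀ s ∈ Rad, cj g s ∈ Rad := by
      intro g s hs t
      rw [← hs (cj g⁻¹ t)]
      refine congrArg χ (Subtype.ext ?_)
      have h1 : ⁅t, cj g s⁆ = cj g ⁅cj g⁻¹ t, s⁆ := Subtype.ext (by
        show (t : H) * ((g : H) * s * (g : H)⁻¹) * (t : H)⁻¹ * ((g : H) * s * (g : H)⁻¹)⁻¹ =
          (g : H) * (((g⁻¹ : D) : H) * t * ((g⁻¹ : D) : H)⁻¹ * s *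
            (((g⁻¹ : D) : H) * t * ((g⁻¹ : D) : H)⁻¹)⁻¹ * (s : H)⁻¹) * (g : H)⁻¹
        rw [Subgroup.coe_inv]
        group)
      exact h1.trans (hcjA g _ (hRcl _ _))
    let k' := AlgebraicClosure (ZMod q)
    haveI : CharP k' q := charP_of_injective_algebraMap (algebraMap (ZMod q) k').injective q
    have hk' : ∀ l : ℕ, l.Prime → l ≠ q → (l : k') ≠ 0 := fun l hl hlr h =>
      hlr ((Nat.prime_dvd_prime_iff_eq hq.out hl).1 ((CharP.cast_eq_zero_iff k' q l).1 h)).symm
    have h2k' : (2 : k') ≠ 0 := by exact_mod_cast hk' 2 Nat.prime_two hq2.symm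
    let V' : Submodule k' (R → k') :=
      { carrier := {f | (∀ s t, f (s * t) = f s + f t) ∧ ∀ s ∈ Rad, f s = 0}
        add_mem' := fun {f g} hf hg => ⟨fun s t => by
            simp only [Pi.add_apply, hf.1, hg.1]; abel,
          fun s hs => by simp only [Pi.add_apply, hf.2 s hs, hg.2 s hs, add_zero]⟩
        zero_mem' := ⟨fun s t => by simp, fun s _ => rfl⟩
        smul_mem' := fun c f hf => ⟨fun s t => by simp only [Pi.smul_apply, hf.1, smul_add],
          fun s hs => by simp only [Pi.smul_apply, hf.2 s hs, smul_zero]⟩ }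
    have hcjmul : ∀ (g : D) (s t : R), cj g (s * t) = cj g s * cj g t := fun g s t => Subtype.ext (by
      show (g : H) * ((s : H) * t) * (g : H)⁻¹ = ((g : H) * s * (g : H)⁻¹) * ((g : H) * t * (g : H)⁻¹)
      group)
    let ρ' : D →* Module.End k' V' :=
      { toFun := fun g =>
          { toFun := fun f => ⟨fun s => f.1 (cj g⁻¹ s),
              fun s t => by simp only [hcjmul]; exact f.2.1 _ _, fun s hs => f.2.2 _ (hRadD _ s hs)⟩
            map_add' := fun f f' => rfl
            map_smul' := fun c f => rfl }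
        map_one' := LinearMap.ext fun f => Subtype.ext (funext fun s =>
          congrArg f.1 (Subtype.ext (by
            show (((1 : D)⁻¹ : D) : H) * s * (((1 : D)⁻¹ : D) : H)⁻¹ = s
            simp)))
        map_mul' := fun g g' => LinearMap.ext fun f => Subtype.ext (funext fun s =>
          congrArg f.1 (Subtype.ext (by
            show (((g * g')⁻¹ : D) : H) * s * (((g * g')⁻¹ : D) : H)⁻¹ =
              ((g'⁻¹ : D) : H) * (((g⁻¹ : D) : H) * s * ((g⁻¹ : D) : H)⁻¹) * ((g'⁻¹ : D) : H)⁻¹
            simp only [Subgroup.coe_inv, Subgroup.coe_mul]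
            group))) }
    set e := N - j with he
    have hnj : 2 ^ j * 2 ^ e = 2 ^ N := by rw [← pow_add, Nat.add_sub_cancel' hj.le]
    set a' := a ^ 2 ^ j with ha'
    set σ' := σ ^ 2 ^ j with hσ'
    have hσ'P : σ' ^ 2 ^ e = 1 := by rw [hσ', ← pow_mul, hnj, hσ]
    have ha'P : a' ^ 2 ^ e = 1 := by rw [ha', ← pow_mul, hnj, ha]
    have hσ'inv : σ'⁻¹ = σ ^ (2 ^ j * (2 ^ e - 1)) := by
      refine inv_eq_of_mul_eq_one_right ?_
      rw [pow_mul, ← pow_succ', Nat.sub_add_cancel (Nat.one_le_two_pow), hσ'P]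
    let T' : Module.End k' V' :=
      { toFun := fun f => ⟨fun s => f.1 (σ'⁻¹ s), fun s t => by simp only [map_mul]; exact f.2.1 _ _,
          fun s hs => f.2.2 _ (by rw [hσ'inv]; exact hRadσ _ (dvd_mul_right _ _) s hs)⟩
        map_add' := fun f f' => rfl
        map_smul' := fun c f => rfl }
    have hT'i : ∀ (i : ℕ) (f : V') (s : R), ((T' ^ i) f).1 s = f.1 (((σ' ^ i)⁻¹ : MulAut R) s) := by
      intro i
      induction i with
      | zero => intro f s; simp
      | succ i ih =>
        intro f s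
        rw [pow_succ', Module.End.mul_apply, pow_succ', mul_inv_rev, MulAut.mul_apply]
        exact ih f (σ'⁻¹ s)
    have hT'P : T' ^ 2 ^ e = 1 := LinearMap.ext fun f => Subtype.ext (funext fun s => by
      rw [hT'i, hσ'P, inv_one]; rfl)
    have hT'L : ∀ g : D, T' * ρ' g = ρ' ⟨a' • (g : H), smul_moved (by rw [hy, ha', ← pow_add, ← pow_add, add_comm]) g.2⟩ * T' := by
      intro g
      refine LinearMap.ext fun f => Subtype.ext (funext fun s => congrArg f.1 ?_)
      refine σ'.injective (Subtype.ext ?_)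
      rw [MulAut.apply_inv_self]
      show ((σ' (cj g⁻¹ (σ'⁻¹ s)) : R) : H) = ((a' • (g : H))⁻¹) * s * ((a' • (g : H))⁻¹)⁻¹
      rw [hσ', hσi]
      show a' • (((g⁻¹ : D) : H) * ((σ'⁻¹ s : R) : H) * ((g⁻¹ : D) : H)⁻¹) = _
      rw [Subgroup.coe_inv, smul_mul', smul_mul', inv_inv, inv_inv, smul_inv', ha',
        ← hσi (2 ^ j) (σ'⁻¹ s), ← hσ', MulAut.apply_inv_self]
    -- the group of linear maps
    let D₀ : Subgroup (Module.End k' V')ˣ := ρ'.toHomUnits.range
    haveI : Finite D₀ := Finite.of_surjective _ ρ'.toHomUnits.rangeRestrict_surjective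
    haveI : Group.IsSolvable D₀ := solvable_of_surjective ρ'.toHomUnits.rangeRestrict_surjective
    have hD₀odd : Odd (Nat.card D₀) :=
      hodd.of_dvd_nat ((Subgroup.card_range_dvd _).trans (Subgroup.card_subgroup_dvd_card D))
    let uT : (Module.End k' V')ˣ := Units.ofPowEqOne T' (2 ^ e) hT'P (Nat.two_pow_pos e).ne'
    have huT : ∀ g : D, uT * ρ'.toHomUnits g * uT⁻¹ =
        ρ'.toHomUnits ⟨a' • (g : H), smul_moved (by rw [hy, ha', ← pow_add, ← pow_add, add_comm]) g.2⟩ := by
      intro g
      rw [mul_inv_eq_iff_eq_mul]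
      exact Units.ext (hT'L g)
    have hD₀map : D₀.map (MulAut.conj uT : (Module.End k' V')ˣ ≃* (Module.End k' V')ˣ).toMonoidHom = D₀ := by
      refine Subgroup.eq_of_le_of_card_ge ?_ (Subgroup.card_map_of_injective
        (f := (MulAut.conj uT : (Module.End k' V')ˣ ≃* (Module.End k' V')ˣ).toMonoidHom)
        (MulAut.conj uT).injective).ge
      rintro _ ⟨_, ⟨g, rfl⟩, rfl⟩
      exact ⟨_, (huT g).symm⟩
    let α : MulAut D₀ :=
      ((MulAut.conj uT : (Module.End k' V')ˣ ≃* (Module.End k' V')ˣ).subgroupMap D₀).trans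
        (MulEquiv.subgroupCongr hD₀map)
    have hαi : ∀ (i : ℕ) (z : D₀), (((α ^ i) z : D₀) : (Module.End k' V')ˣ) = uT ^ i * z * (uT ^ i)⁻¹ := by
      intro i z
      induction i with
      | zero => simp
      | succ i ih =>
        rw [pow_succ', MulAut.mul_apply]
        show uT * (((α ^ i) z : D₀) : (Module.End k' V')ˣ) * uT⁻¹ = _
        rw [ih, pow_succ' uT]
        group
    have huP : uT ^ 2 ^ e = 1 := Units.ext (by rw [Units.val_pow_eq_pow_val]; exact hT'P)
    have hαP : α ^ 2 ^ e = 1 := MulEquiv.ext fun z => Subtype.ext (by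
      rw [hαi, huP, one_mul, inv_one, mul_one]; rfl)
    set c := 2 ^ (e - 1) with hc
    have hcj : 2 ^ j * c = hh := by rw [hc, hhdef, ← pow_add]; congr 1; omega
    have hc2 : c * 2 = 2 ^ e := by rw [hc, ← pow_succ, show e - 1 + 1 = e by omega]
    have hσc : (σ' ^ c)⁻¹ = σ ^ hh := by
      refine inv_eq_of_mul_eq_one_right ?_
      rw [hσ', ← pow_mul, hcj, ← pow_add, ← mul_two, hh2, hσ]
    have hq0 : IsPGroup q D₀ := by
      refine isPGroup_of_inverted hD₀odd (α ^ c) (by rw [← pow_mul, hc2, hαP]) ?_ ?_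
      · intro t ht htq
        haveI : Fact t.Prime := ⟨ht⟩
        rcases eq_or_ne t 2 with rfl | ht2
        · obtain ⟨P⟩ : Nonempty (Sylow 2 D₀) := inferInstance
          refine ⟨P, fun z hz => ?_⟩
          obtain ⟨i, hi⟩ := P.isPGroup' ⟨z, hz⟩
          have h1 : z = 1 := orderOf_eq_one_iff.1 (Nat.eq_one_of_dvd_coprimes
            ((Nat.coprime_two_left.2 hD₀odd).pow_left i)
            (orderOf_dvd_of_pow_eq_one (congrArg Subtype.val hi)) (orderOf_dvd_natCard z))
          rw [h1, map_one]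
        rcases hor with hl | ⟨he1, ⟨m, hm⟩, hfix, -⟩
        · obtain ⟨P⟩ : Nonempty (Sylow t D₀) := inferInstance
          refine ⟨P, fun z _ => Subtype.ext ?_⟩
          have hTc : uT ^ c = 1 := by
            refine Units.ext (LinearMap.ext fun f => Subtype.ext (funext fun s => ?_))
            rw [Units.val_pow_eq_pow_val]
            show ((T' ^ c) f).1 s = f.1 s
            rw [hT'i, hσc, show (σ ^ hh) s = s * (s⁻¹ * (σ ^ hh) s) by rw [mul_inv_cancel_left], f.2.1,
              f.2.2 _ (fun t => hl s t), add_zero]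
          rw [hαi, hTc, one_mul, inv_one, mul_one]
        · obtain ⟨P, hP⟩ := CfsgLib.Coprime.exists_invariant_sylow_action (p := t) (Subgroup.zpowers α).subtype
            (by
              rw [Nat.card_zpowers]
              exact Nat.Coprime.coprime_dvd_left (orderOf_dvd_of_pow_eq_one hαP)
                ((Nat.coprime_two_left.2 hD₀odd).pow_left e))
            (Or.inr inferInstance)
          have hPα : (P : Subgroup D₀).map (α : D₀ ≃* D₀).toMonoidHom = P := Subgroup.eq_of_le_of_card_ge
            (by rintro _ ⟨z, hz, rfl⟩; exact hP ⟨α, Subgroup.mem_zpowers α⟩ z hz)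
            (Subgroup.card_map_of_injective (f := (α : D₀ ≃* D₀).toMonoidHom) α.injective).ge
          let β : MulAut (P : Subgroup D₀) := ((α : D₀ ≃* D₀).subgroupMap (P : Subgroup D₀)).trans
            (MulEquiv.subgroupCongr hPα)
          have hβi : ∀ (i : ℕ) (z : (P : Subgroup D₀)),
              (((β ^ i) z : (P : Subgroup D₀)) : D₀) = (α ^ i) (z : D₀) := by
            intro i z
            induction i with
            | zero => rfl
            | succ i ih => rw [pow_succ', MulAut.mul_apply, pow_succ', MulAut.mul_apply, ← ih]; rfl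
          refine ⟨P, fun z hz => ?_⟩
          have h1 := spectral (k := k') (E := V') ht2 h2k' (hk' t ht htq) P.isPGroup' e he1 β
            (MulEquiv.ext fun z => Subtype.ext (by rw [hβi, hαP]; rfl))
            ((Units.coeHom _).comp ((D₀.subtype).comp (P : Subgroup D₀).subtype))
            (fun z w hzw => Subtype.ext (Subtype.ext (Units.ext hzw))) T' hT'P
            (fun z => by
              show (uT : Module.End k' V') * _ = _
              have h2 := hαi 1 (z : D₀)
              simp only [pow_one] at h2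
              show ((uT * ((z : D₀) : (Module.End k' V')ˣ) : (Module.End k' V')ˣ) : Module.End k' V') =
                (((α (z : D₀) : D₀) : (Module.End k' V')ˣ) * uT : (Module.End k' V')ˣ)
              rw [h2, inv_mul_cancel_right])
            (fun f => by
              refine Subtype.ext (funext fun s => ?_)
              show ((T' ^ c) f + f).1 (σ'⁻¹ s) = ((T' ^ c) f + f).1 s
              simp only [Submodule.coe_add, Pi.add_apply, hT'i, hσc]
              rw [← f.2.1, ← f.2.1]
              -- `f` takes equal values at `y u * u` and at its image under `σ'`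
              generalize hu : σ'⁻¹ s = u
              obtain rfl : s = σ' u := by rw [← hu, MulAut.apply_inv_self]
              have hcomm : (σ ^ hh) (σ' u) = σ' ((σ ^ hh) u) := by
                rw [hσ', ← MulAut.mul_apply, ← MulAut.mul_apply, ← pow_add, ← pow_add, add_comm]
              rw [hcomm, ← map_mul]
              set v := (σ ^ hh) u * u with hv
              have hv2 : v⁻¹ * (σ ^ hh) v ∈ A₀ := by
                have h2 : (σ ^ hh) ((σ ^ hh) u) = u := by
                  rw [← MulAut.mul_apply, ← pow_add, ← mul_two, hh2, hσ, MulAut.one_apply]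
                rw [hv, map_mul, h2, show ((σ ^ hh) u * u)⁻¹ * (u * (σ ^ hh) u) =
                  ⁅u⁻¹, ((σ ^ hh) u)⁻¹⁆ by simp only [commutatorElement_def]; group]
                exact hRcl _ _
              have h3 : f.1 (σ' v) = f.1 v := by
                conv_lhs => rw [← mul_inv_cancel_left v (σ' v)]
                rw [f.2.1, f.2.2 (v⁻¹ * σ' v) (fun t => hfix v hv2 t), add_zero]
              exact h3.symm)
            (fun h2 h3 => htq (by
              have h4 : q ^ m = 3 := by rw [hm, h2]; norm_num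
              rcases m with _ | m
              · simp at h4
              · rw [h3, ((Nat.prime_dvd_prime_iff_eq hq.out Nat.prime_three).1
                  (h4 ▸ dvd_pow_self q (by omega)))]))
            ⟨z, hz⟩
          have h2 := congrArg (fun w : (P : Subgroup D₀) => (w : D₀)) h1
          simp only [hβi] at h2
          exact h2
      · rw [eq_top_iff]
        rintro ⟨_, g, rfl⟩ -
        show ρ'.toHomUnits.rangeRestrict g ∈ _
        obtain ⟨g, hg⟩ := g
        induction hg using Subgroup.closure_induction with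
        | mem z hz =>
          refine Subgroup.subset_closure ?_
          obtain ⟨x, rfl⟩ := hz
          have hya : a' ^ c = y := by rw [ha', ← pow_mul, hcj]
          have hpow : ∀ (i : ℕ) (g : D), uT ^ i * ρ'.toHomUnits g * (uT ^ i)⁻¹ =
              ρ'.toHomUnits ⟨a' ^ i • (g : H), smul_moved (by
                rw [hy, ha', ← pow_mul, ← pow_add, ← pow_add, add_comm]) g.2⟩ := by
            intro i
            induction i with
            | zero =>
              intro g
              rw [pow_zero, one_mul, inv_one, mul_one]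
              exact congrArg _ (Subtype.ext (show (g : H) = a' ^ 0 • (g : H) by rw [pow_zero, one_smul]))
            | succ i ih =>
              intro g
              rw [show uT ^ (i + 1) * ρ'.toHomUnits g * (uT ^ (i + 1))⁻¹ =
                uT * (uT ^ i * ρ'.toHomUnits g * (uT ^ i)⁻¹) * uT⁻¹ by rw [pow_succ']; group, ih, huT]
              exact congrArg _ (Subtype.ext (by
                show a' • a' ^ i • (g : H) = a' ^ (i + 1) • (g : H)
                rw [← mul_smul, ← pow_succ']))
          refine Subtype.ext ?_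
          rw [hαi, Subgroup.coe_inv]
          show uT ^ c * ρ'.toHomUnits _ * (uT ^ c)⁻¹ = (ρ'.toHomUnits _)⁻¹
          rw [hpow, ← map_inv]
          refine congrArg _ (Subtype.ext ?_)
          show a' ^ c • (x⁻¹ * y • x) = (x⁻¹ * y • x)⁻¹
          rw [hya, smul_mul', smul_inv', mul_inv_rev, inv_inv, ← mul_smul, hy, ← pow_add, ← mul_two, hh2, ha,
            one_smul]
        | one => rw [show (⟨1, one_mem D⟩ : D) = 1 from rfl, map_one]; exact one_mem _
        | mul u v hu hv ihu ihv =>
          rw [show (⟨u * v, mul_mem hu hv⟩ : D) = ⟨u, hu⟩ * ⟨v, hv⟩ from rfl, map_mul]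
          exact mul_mem ihu ihv
        | inv u hu ihu =>
          rw [show (⟨u⁻¹, inv_mem hu⟩ : D) = (⟨u, hu⟩ : D)⁻¹ from rfl, map_inv]
          exact inv_mem ihu
    -- hence `d` acts trivially
    intro s
    by_contra hne
    push Not at hne
    obtain ⟨t, ht⟩ := hne
    set z := cj ⟨d, hd⟩ s * s⁻¹ with hz
    have hzR : z ∉ Rad := fun h => ht (h t)
    letI : CommGroup (R ⧸ Rad) := { (inferInstance : Group (R ⧸ Rad)) with
      mul_comm := fun x w => by
        induction x using QuotientGroup.induction_on with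
        | _ s =>
          induction w using QuotientGroup.induction_on with
          | _ t =>
            rw [← QuotientGroup.mk_mul, ← QuotientGroup.mk_mul, QuotientGroup.eq,
              show (s * t)⁻¹ * (t * s) = ⁅t⁻¹, s⁻¹⁆ by simp [commutatorElement_def]; group]
            exact hcenRad (hRcl _ _) }
    obtain ⟨φ, hφ⟩ := exists_addHom_apply_ne k' (W := Additive (R ⧸ Rad)) (ℓ := q) (fun w => by
      refine Additive.toMul.injective ?_
      show w.toMul ^ q = 1
      induction w.toMul using QuotientGroup.induction_on with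
      | _ s => rw [← QuotientGroup.mk_pow, QuotientGroup.eq_one_iff]; exact hcenRad (hRpow s))
      (w := Additive.ofMul (z : R ⧸ Rad))
      (fun h0 => hzR ((QuotientGroup.eq_one_iff z).1 (congrArg Additive.toMul h0)))
    let f : V' := ⟨fun s => φ (Additive.ofMul (s : R ⧸ Rad)), fun s t => by
        show φ _ = φ _ + φ _
        rw [QuotientGroup.mk_mul, ofMul_mul, map_add], fun s hs => by
      show φ (Additive.ofMul (s : R ⧸ Rad)) = 0
      rw [(QuotientGroup.eq_one_iff s).2 hs]
      exact map_zero φ⟩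
    refine hφ ?_
    show f.1 z = 0
    have h1 : ρ'.toHomUnits.rangeRestrict ⟨d, hd⟩⁻¹ = 1 := by
      obtain ⟨i, hi⟩ := hq0 (ρ'.toHomUnits.rangeRestrict ⟨d, hd⟩⁻¹)
      refine orderOf_eq_one_iff.1 (Nat.eq_one_of_dvd_coprimes (hdq.pow_right i) ?_ (orderOf_dvd_of_pow_eq_one hi))
      refine (orderOf_map_dvd _ _).trans ?_
      rw [orderOf_inv, ← Subgroup.orderOf_coe]
    have h2 : f.1 (cj ⟨d, hd⟩ s) = f.1 s := by
      have h3 := congrArg (fun w : D₀ => (((w : (Module.End k' V')ˣ) : Module.End k' V') f).1 s) h1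
      simp only [OneMemClass.coe_one, Units.val_one, Module.End.one_apply] at h3
      refine Eq.trans ?_ h3
      show f.1 _ = f.1 (cj (⟨d, hd⟩⁻¹)⁻¹ s)
      rw [inv_inv]
    have h4 := f.2.1 z s
    rw [hz, inv_mul_cancel_right, h2, ← hz] at h4
    exact add_eq_right.1 h4.symm
  -- triviality on the critical subgroup
  have hdR : ∀ s : R, cj ⟨d, hd⟩ s = s := by
    intro s
    set z := cj ⟨d, hd⟩ s * s⁻¹ with hz
    have hzA : z ∈ A₀ := Subgroup.mem_center_iff.2 fun t => by
      rw [← commutatorElement_eq_one_iff_mul_comm]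
      exact congrArg Subtype.val (hsep ⟨⁅t, z⁆, hRcl _ _⟩ 1 fun χ x hx hxχ => by
        rw [map_one]; exact hrad χ x hx hxχ s t)
    have hstep : d * (s : H) * d⁻¹ = (z : H) * s := by
      rw [hz, Subgroup.coe_mul, Subgroup.coe_inv, inv_mul_cancel_right]
    have hzd : d * (z : H) * d⁻¹ = z := congrArg Subtype.val (hcjA ⟨d, hd⟩ z hzA)
    have hi : ∀ i : ℕ, d ^ i * (s : H) * (d ^ i)⁻¹ = (z : H) ^ i * s := by
      intro i
      induction i with
      | zero => simp
      | succ i ih =>
        have : d * ((z : H) ^ i * s) * d⁻¹ = (d * (z : H) * d⁻¹) ^ i * (d * (s : H) * d⁻¹) := by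
          rw [conj_pow]; group
        rw [show d ^ (i + 1) * (s : H) * (d ^ (i + 1))⁻¹ = d * (d ^ i * (s : H) * (d ^ i)⁻¹) * d⁻¹ by
          rw [pow_succ']; group, ih, this, hzd, hstep, ← mul_assoc, ← pow_succ]
    have h1 := hi (orderOf d)
    rw [pow_orderOf_eq_one, one_mul, inv_one, mul_one, right_eq_mul] at h1
    obtain ⟨i, hi'⟩ := hRq z
    have h2 : orderOf (z : H) = 1 := Nat.eq_one_of_dvd_coprimes (hdq.pow_right i) (orderOf_dvd_of_pow_eq_one h1)
      (by rw [Subgroup.orderOf_coe]; exact orderOf_dvd_of_pow_eq_one hi')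
    refine Subtype.ext ?_
    show d * (s : H) * d⁻¹ = s
    rw [hstep, orderOf_eq_one_iff.1 h2, one_mul]
  -- Thompson
  have hS' : (MulAut.conjNormal (H := S) d) = 1 := hC.aut_eq_one hSq
    (Nat.Coprime.coprime_dvd_left (orderOf_map_dvd _ d) hdq) fun c hc => Subtype.ext (by
      rw [MulAut.conjNormal_apply]
      exact congrArg Subtype.val (hdR ⟨(c : H), c, hc, rfl⟩))
  intro s hs
  have h1 := congrArg Subtype.val (DFunLike.congr_fun hS' ⟨s, hs⟩)
  rw [MulAut.conjNormal_apply, MulAut.one_apply, mul_inv_eq_iff_eq_mul] at h1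
  exact h1

end CfsgLib.GrossHeight
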