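import Mathlib
import Cfsg.Agent.GrossHeight.Cores
import Cfsg.Agent.FpfAut.Reduction
import Cfsg.Agent.ShultGrossH65.Height
import Cfsg.Agent.S3794

/-!
# Gross's theorem on fixed point free automorphisms of two-power order

A finite solvable group with a fixed point free automorphism of order dividing `2 ^ n`, `n ≥ 2`, has Fitting
height at most `2 * n - 2`.
-/

set_option autoImplicit false

open Cfsg CfsgLib.FpfAut

namespace CfsgLib.GrossHeight

universe u v

/-- An element of `q`-power order of the Fitting subgroup lies in `O_q`. -/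
theorem mem_pCore_of_mem_fitting {G : Type u} [Group G] [Finite G] {q : ℕ} [Fact q.Prime] {x : G}
    (hx : x ∈ fittingSubgroup G) {i : ℕ} (hi : x ^ q ^ i = 1) : x ∈ pCore q G := by
  set F := fittingSubgroup G
  obtain ⟨Q, hQ⟩ := (IsPGroup.of_card (G := Subgroup.zpowers (⟨x, hx⟩ : F)) (p := q)
    (n := ((Nat.dvd_prime_pow Fact.out).1 (orderOf_dvd_of_pow_eq_one (Subtype.ext hi :
      (⟨x, hx⟩ : F) ^ q ^ i = 1))).choose)
    (by
      rw [Nat.card_zpowers]
      exact ((Nat.dvd_prime_pow Fact.out).1 (orderOf_dvd_of_pow_eq_one (Subtype.ext hi :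
        (⟨x, hx⟩ : F) ^ q ^ i = 1))).choose_spec.2)).exists_le_sylow
  exact CfsgLib.Constrained.map_sylow_le_pCore inferInstance inferInstance Q
    ⟨⟨x, hx⟩, hQ (Subgroup.mem_zpowers _), rfl⟩

/-- The moved subgroup lies in the Fitting subgroup. -/
theorem moved_le_fitting {A : Type v} [Group A] {H W : Type u} [Group H] [Finite H] [MulDistribMulAction A H]
    [AddCommGroup W] [Finite W] [DistribMulAction A W] [DistribMulAction H W] [Group.IsSolvable H]
    {r : ℕ} [Fact r.Prime] (hr2 : r ≠ 2) (hM : IsOpModule r A H W) (hodd : Odd (Nat.card H)) (a : A) (N : ℕ)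
    (hN : 0 < N) (ha : a ^ 2 ^ N = 1) (hW : ∀ w : W, a • w = w → w = 0) :
    moved (H := H) (a ^ 2 ^ (N - 1)) ≤ fittingSubgroup H := by
  classical
  set D : Subgroup H := moved (a ^ 2 ^ (N - 1)) with hD
  have hcent : ∀ q : ℕ, q.Prime → ∀ d ∈ D, (orderOf d).Coprime q → ∀ s ∈ pCore q H, d * s = s * d := by
    intro q hq d hd hdq
    haveI : Fact q.Prime := ⟨hq⟩
    exact commute_pCore_of_coprime hr2 hM hodd a N hN ha hW hd hdq
  have hcomm : ∀ (p t : ℕ), p.Prime → t.Prime → p ≠ t → ∀ d ∈ D, ∀ e ∈ D, ∀ i l : ℕ, d ^ p ^ i = 1 →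
      e ^ t ^ l = 1 → d * e = e * d := by
    intro p t hp ht hpt d hd e he i l hdi hel
    haveI : Fact p.Prime := ⟨hp⟩
    haveI : Fact t.Prime := ⟨ht⟩
    have hdq : ∀ q : ℕ, q.Prime → q ≠ p → (orderOf d).Coprime q := fun q hq hqp =>
      Nat.Coprime.coprime_dvd_left (orderOf_dvd_of_pow_eq_one hdi) (((Nat.coprime_primes hp hq).2 (Ne.symm hqp)).pow_left i)
    have heq : ∀ q : ℕ, q.Prime → q ≠ t → (orderOf e).Coprime q := fun q hq hqt =>
      Nat.Coprime.coprime_dvd_left (orderOf_dvd_of_pow_eq_one hel) (((Nat.coprime_primes ht hq).2 (Ne.symm hqt)).pow_left l)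
    set z := e * d * e⁻¹ * d⁻¹ with hz
    have hzC : ∀ q : ℕ, q.Prime → z ∈ Subgroup.centralizer ((pCore q H : Subgroup H) : Set H) := by
      intro q hq
      set K := Subgroup.centralizer ((pCore q H : Subgroup H) : Set H)
      haveI : K.Normal := Subgroup.normal_centralizer
      by_cases hqp : q = p
      · have hek : e ∈ K := Subgroup.mem_centralizer_iff.2 fun s hs =>
          (hcent q hq e he (heq q hq (hqp ▸ hpt)) s hs).symm
        rw [hz, mul_assoc e d, mul_assoc]
        exact mul_mem hek (Subgroup.Normal.conj_mem inferInstance _ (inv_mem hek) d)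
      · have hdk : d ∈ K := Subgroup.mem_centralizer_iff.2 fun s hs =>
          (hcent q hq d hd (hdq q hq hqp) s hs).symm
        exact mul_mem (Subgroup.Normal.conj_mem inferInstance d hdk e) (inv_mem hdk)
    have hzF : z ∈ fittingSubgroup H := by
      refine CfsgLib.Constrained.centralizer_fitting_le ?_
      have h1 : fittingSubgroup H ≤ Subgroup.centralizer ({z} : Set H) := by
        rw [CfsgLib.Constrained.fitting_eq_iSup_pCore]
        refine iSup₂_le fun q hq => fun s hs => ?_
        exact Subgroup.mem_centralizer_singleton_iff.2 (Subgroup.mem_centralizer_iff.1 (hzC q hq) s hs)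
      exact Subgroup.mem_centralizer_iff.2 fun f hf => Subgroup.mem_centralizer_singleton_iff.1 (h1 hf)
    have hzs : ∀ f ∈ fittingSubgroup H, z * f = f * z := by
      intro f hf
      rw [CfsgLib.Constrained.fitting_eq_iSup_pCore] at hf
      have h1 : (⨆ (q : ℕ) (_ : q.Prime), (pCore q H : Subgroup H)) ≤ Subgroup.centralizer ({z} : Set H) :=
        iSup₂_le fun q hq => fun s hs =>
          Subgroup.mem_centralizer_singleton_iff.2 (Subgroup.mem_centralizer_iff.1 (hzC q hq) s hs)
      exact (Subgroup.mem_centralizer_singleton_iff.1 (h1 hf)).symm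
    -- the part of `z` of order prime to `p`
    obtain ⟨b, m, hm, hzm⟩ : ∃ b m, ¬ p ∣ m ∧ orderOf z = p ^ b * m :=
      Nat.exists_eq_pow_mul_and_not_dvd (orderOf_pos z).ne' p hp.ne_one
    have hw : ∀ w ∈ Subgroup.zpowers z, (orderOf w).Coprime p → d * w = w * d := by
      intro w hw hwp
      have hwF : w ∈ fittingSubgroup H := Subgroup.zpowers_le.2 hzF hw
      let Kd : Subgroup (Subgroup.zpowers w) := (Subgroup.centralizer ({d} : Set H)).subgroupOf (Subgroup.zpowers w)
      have htop : Kd = ⊤ := by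
        refine CfsgLib.Constrained.eq_top_of_forall_sylow_le Kd fun q hq => ?_
        haveI : Fact q.Prime := ⟨hq⟩
        obtain ⟨Q⟩ : Nonempty (Sylow q (Subgroup.zpowers w)) := inferInstance
        refine ⟨Q, fun x hx => ?_⟩
        obtain ⟨c, hc⟩ := Q.isPGroup' ⟨x, hx⟩
        have hc' : (x : H) ^ q ^ c = 1 := congrArg (fun u : Q => ((u : Subgroup.zpowers w) : H)) hc
        rw [Subgroup.mem_subgroupOf, Subgroup.mem_centralizer_singleton_iff]
        by_cases hqp : q = p
        · have h1 : orderOf (x : H) = 1 := Nat.eq_one_of_dvd_coprimes ((hwp.symm.pow_left c))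
            (hqp ▸ orderOf_dvd_of_pow_eq_one hc')
            ((Subgroup.orderOf_coe x).symm ▸ Nat.card_zpowers w ▸ orderOf_dvd_natCard x)
          rw [orderOf_eq_one_iff.1 h1, one_mul, mul_one]
        · exact (hcent q hq d hd (hdq q hq hqp) _
            (mem_pCore_of_mem_fitting (Subgroup.zpowers_le.2 hwF x.2) hc')).symm
      have h2 : (⟨w, Subgroup.mem_zpowers w⟩ : Subgroup.zpowers w) ∈ Kd := htop ▸ Subgroup.mem_top _
      exact (Subgroup.mem_centralizer_singleton_iff.1 (Subgroup.mem_subgroupOf.1 h2)).symm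
    set w := z ^ p ^ b with hwdef
    have hwo : orderOf w = m := by
      rw [hwdef, orderOf_pow' _ (pow_ne_zero _ hp.ne_zero), hzm, Nat.gcd_mul_right_left,
        Nat.mul_div_cancel_left _ (pow_pos hp.pos b)]
    have hwd : d * w = w * d :=
      hw w (pow_mem (Subgroup.mem_zpowers z) _) (hwo ▸ (hp.coprime_iff_not_dvd.2 hm).symm)
    -- `z` has order a power of `p`
    have hd' : ∀ u ∈ pCore p H, ∀ n : ℕ, ∃ u' ∈ pCore p H, (u * d) ^ n = u' * d ^ n := by
      intro u hu n
      induction n with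
      | zero => exact ⟨1, one_mem _, by simp⟩
      | succ n ih =>
        obtain ⟨u', hu', he'⟩ := ih
        refine ⟨u' * (d ^ n * u * (d ^ n)⁻¹), mul_mem hu'
          (Subgroup.Normal.conj_mem inferInstance u hu _), ?_⟩
        rw [pow_succ, he', pow_succ]
        group
    obtain ⟨β, hβ⟩ : ∃ β : ℕ, p ^ b * β % m = 1 % m := by
      rcases Nat.lt_or_ge 1 m with h1 | h1
      · obtain ⟨β, -, hβ⟩ := Nat.exists_mul_mod_eq_one_of_coprime ((hp.coprime_iff_not_dvd.2 hm).pow_left b) h1
        exact ⟨β, by rw [hβ, Nat.mod_eq_of_lt h1]⟩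
      · exact ⟨0, by interval_cases m <;> simp at hm ⊢⟩
    -- the `p'`-part
    set v := w ^ β with hv
    have hvd : d * v = v * d := (Commute.pow_right hwd β).eq
    set u := z * v⁻¹ with hu
    have huz : z = u * v := by rw [hu, inv_mul_cancel_right]
    have hzw : w ^ m = 1 := hwo ▸ pow_orderOf_eq_one w
    have hup : u ^ p ^ b = 1 := by
      rw [hu, (((Commute.refl z).pow_right (p ^ b)).pow_right β).inv_right.mul_pow, ← hwdef, inv_pow,
        mul_inv_eq_one, ← pow_mul, mul_comm, ← pow_mod_orderOf, hwo, hβ, ← hwo, pow_mod_orderOf, pow_one]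
    have huF : u ∈ fittingSubgroup H := mul_mem hzF (inv_mem (pow_mem (pow_mem hzF _) _))
    have huC : u ∈ pCore p H := mem_pCore_of_mem_fitting huF hup
    have hcuv : Commute v u := by
      rw [hu, hv, hwdef]
      exact (((Commute.refl z).pow_left _).pow_left _).mul_right (Commute.refl _).inv_right
    have hvud : Commute v (u * d) := hcuv.mul_right hvd.symm
    have hconj : e * d * e⁻¹ = v * (u * d) := by
      rw [← mul_assoc, hcuv.eq, ← huz, hz, inv_mul_cancel_right]
    obtain ⟨u', hu', hud⟩ := hd' u huC (p ^ i)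
    obtain ⟨c, hc⟩ := CfsgLib.Constrained.isPGroup_pCore (p := p) (G := H) ⟨u', hu'⟩
    have hc' : u' ^ p ^ c = 1 := congrArg Subtype.val hc
    have h1 : (e * d * e⁻¹) ^ p ^ (i + c) = 1 := by
      rw [conj_pow, pow_add, pow_mul, hdi, one_pow, mul_one, mul_inv_cancel]
    rw [hconj, hvud.mul_pow, pow_add, pow_mul (u * d), hud, hdi, mul_one, hc', mul_one] at h1
    have hv1 : v = 1 := orderOf_eq_one_iff.1 (Nat.eq_one_of_dvd_coprimes
      ((hp.coprime_iff_not_dvd.2 hm).symm.pow_right (i + c))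
      (hwo ▸ orderOf_pow_dvd β)
      (orderOf_dvd_of_pow_eq_one (by rwa [pow_add])))
    have hzu : z = u := by rw [huz, hv1, mul_one]
    have hez : e * z = z * e := hzu ▸ hcent p hp e he (heq p hp hpt) u huC
    have hstep : ∀ n : ℕ, e ^ n * d * (e ^ n)⁻¹ = z ^ n * d := by
      intro n
      induction n with
      | zero => simp
      | succ n ih =>
        rw [show e ^ (n + 1) * d * (e ^ (n + 1))⁻¹ = e * (e ^ n * d * (e ^ n)⁻¹) * e⁻¹ by
          rw [pow_succ']; group, ih, show e * (z ^ n * d) * e⁻¹ = (e * z * e⁻¹) ^ n * (e * d * e⁻¹) by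
          rw [conj_pow]; group, hez, mul_inv_cancel_right,
          show e * d * e⁻¹ = z * d by rw [hz, inv_mul_cancel_right], ← mul_assoc, ← pow_succ]
    have h2 := hstep (t ^ l)
    rw [hel, one_mul, inv_one, mul_one, right_eq_mul] at h2
    have hz1 : z = 1 := orderOf_eq_one_iff.1 (Nat.eq_one_of_dvd_coprimes
      (((Nat.coprime_primes hp ht).2 hpt).pow b l)
      (orderOf_dvd_of_pow_eq_one (hzu ▸ hup)) (orderOf_dvd_of_pow_eq_one h2))
    rw [hz, mul_inv_eq_one, mul_inv_eq_iff_eq_mul] at hz1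
    exact hz1.symm
  refine CfsgLib.Constrained.le_fitting (moved_normal _) ?_
  refine ((Group.isNilpotent_of_finite_tfae (G := D)).out 0 3).mpr ?_
  intro p hp P
  rw [← Subgroup.normalizer_eq_top_iff]
  refine CfsgLib.Constrained.eq_top_of_forall_sylow_le _ fun t ht => ?_
  haveI : Fact t.Prime := ⟨ht⟩
  by_cases htp : t = p
  · subst htp
    exact ⟨P, Subgroup.le_normalizer⟩
  obtain ⟨Q⟩ : Nonempty (Sylow t D) := inferInstance
  refine ⟨Q, fun e he => ?_⟩
  obtain ⟨l, hl⟩ := Q.isPGroup' ⟨e, he⟩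
  have hl' : (e : H) ^ t ^ l = 1 := congrArg (fun u : Q => ((u : D) : H)) hl
  have hfix : ∀ d ∈ (P : Subgroup D), d * e = e * d := by
    intro d hd
    obtain ⟨i, hi⟩ := P.isPGroup' ⟨d, hd⟩
    exact Subtype.ext (hcomm p t Fact.out ht (Ne.symm htp) d d.2 e e.2 i l
      (congrArg (fun u : P => ((u : D) : H)) hi) hl')
  refine Subgroup.mem_normalizer_iff.2 fun d => ⟨fun hd => ?_, fun hd => ?_⟩
  · rwa [← hfix d hd, mul_inv_cancel_right]
  · have h1 := hfix _ hd
    rw [inv_mul_cancel_right] at h1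
    rw [← mul_left_cancel h1] at hd
    exact hd

/-- The second Fitting subgroup. -/
def fittingTwo (G : Type u) [Group G] [Finite G] : Subgroup G :=
  (fittingSubgroup (G ⧸ fittingSubgroup G)).comap (QuotientGroup.mk' (fittingSubgroup G))

instance (G : Type u) [Group G] [Finite G] : (fittingTwo G).Normal :=
  Subgroup.Normal.comap inferInstance _

/-- The involutory power moves everything into the second Fitting subgroup. -/
theorem inv_mul_smul_mem_fittingTwo {A : Type v} [Group A] (a : A) (N : ℕ) (hN : 0 < N) (ha : a ^ 2 ^ N = 1) :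
    ∀ (n : ℕ) (G : Type u) [Group G] [Finite G] [MulDistribMulAction A G], Nat.card G = n → Group.IsSolvable G →
      (∀ g : G, a • g = g → g = 1) → ∀ g : G, g⁻¹ * a ^ 2 ^ (N - 1) • g ∈ fittingTwo G := by
  intro n
  induction n using Nat.strong_induction_on with
  | _ n ih =>
  intro G _ _ _ hn hsol hfpf
  subst hn
  classical
  haveI := hsol
  haveI : Fact (Nat.Prime 2) := ⟨Nat.prime_two⟩
  rcases subsingleton_or_nontrivial G with hs | hnt
  · intro g
    rw [Subsingleton.elim (g⁻¹ * _) 1]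
    exact one_mem _
  obtain ⟨W, r, hr, hWn, hWA, hW, hWab, hWr, hmin⟩ := exists_minimal_invariant (A := A) hsol
  haveI : Fact r.Prime := ⟨hr⟩
  haveI : Nontrivial W := (Subgroup.nontrivial_iff_ne_bot W).2 hW
  have h2G : ¬ 2 ∣ Nat.card G := CfsgLib.ShultGrossH65.not_dvd_card_of_fpf (N := N) a ha hfpf
  have hr2 : r ≠ 2 := by
    rintro rfl
    obtain ⟨x, hx⟩ := exists_ne (1 : W)
    have h1 : orderOf (x : G) = 2 := orderOf_eq_prime (hWr x x.2) fun h => hx (Subtype.ext h)
    exact h2G (h1 ▸ orderOf_dvd_natCard (x : G))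
  have hcardlt : Nat.card (G ⧸ W) < Nat.card G := by
    have h1 := Subgroup.card_mul_index W
    have h2 : 1 < Nat.card W := Finite.one_lt_card
    have h3 : 0 < W.index := Nat.pos_of_ne_zero Subgroup.index_ne_zero_of_finite
    show W.index < Nat.card G
    nlinarith
  letI := quotientAction (A := A) W hWA
  have hQ : ∀ x : G ⧸ W, x⁻¹ * a ^ 2 ^ (N - 1) • x ∈ fittingTwo (G ⧸ W) := by
    refine ih _ hcardlt (G ⧸ W) rfl inferInstance ?_
    intro x
    induction x using QuotientGroup.induction_on with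
    | _ g =>
      intro hx
      have hx' : ((a • g : G) : G ⧸ W) = g := hx
      rw [eq_comm, QuotientGroup.eq] at hx'
      exact (QuotientGroup.eq_one_iff g).2 (CfsgLib.FpfAut.mem_of_smul_inv_mem (X := ⊤) (fun x _ => hfpf x)
        (fun x _ => Subgroup.mem_top _) le_top (hWA a) (Subgroup.mem_top g) hx')
  refine opModule_elim r W hWA hW hWab hWr hmin (fun g hg => hfpf g (hg a)) ?_
  intro H M _ _ _ _ _ π e hπ hπA hker hM he heW he0 heA g
  haveI : Finite H := Finite.of_surjective π hπ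
  haveI : Finite M := Finite.of_injective e he
  haveI : Group.IsSolvable H := solvable_of_surjective hπ
  have hodd : Odd (Nat.card H) := by
    rw [Nat.odd_iff, ← Nat.two_dvd_ne_zero]
    exact fun h => h2G (h.trans (Subgroup.card_dvd_of_surjective π hπ))
  have hW' : ∀ m : M, a • m = m → m = 0 := fun m hm =>
    he ((hfpf _ (by rw [← heA, hm])).trans he0.symm)
  have hHF : π (g⁻¹ * a ^ 2 ^ (N - 1) • g) ∈ fittingSubgroup H := by
    rw [map_mul, map_inv, hπA]
    exact moved_le_fitting hr2 hM hodd a N hN ha hW' (inv_mul_smul_mem_moved _ (π g))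
  -- the two conditions put the element into the second Fitting subgroup
  set M₂ := (fittingTwo (G ⧸ W)).comap (QuotientGroup.mk' W) with hM₂
  set X := M₂ ⊓ (fittingSubgroup H).comap π with hX
  haveI : M₂.Normal := Subgroup.Normal.comap inferInstance _
  haveI : ((fittingSubgroup H).comap π).Normal := Subgroup.Normal.comap inferInstance _
  haveI : X.Normal := Subgroup.normal_inf_normal _ _
  suffices hXle : X ≤ fittingTwo G from hXle ⟨hQ (g : G ⧸ W), hHF⟩
  set F := fittingSubgroup G with hF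
  -- the kernel
  set C := Subgroup.centralizer (W : Set G) with hCdef
  haveI : C.Normal := Subgroup.normal_centralizer
  set M₁ := (fittingSubgroup (G ⧸ W)).comap (QuotientGroup.mk' W) with hM₁
  haveI : M₁.Normal := Subgroup.Normal.comap inferInstance _
  let K : Subgroup G := M₁ ⊓ C
  haveI : K.Normal := Subgroup.normal_inf_normal M₁ C
  have hKnil : Group.IsNilpotent K := by
    refine Subgroup.isNilpotent_of_ker_le_center
      (((QuotientGroup.mk' W).comp K.subtype).codRestrict (fittingSubgroup (G ⧸ W)) fun x => x.2.1) ?_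
    intro x hx
    have hxW : (x : G) ∈ W := (QuotientGroup.eq_one_iff (x : G)).1 (congrArg Subtype.val hx)
    exact Subgroup.mem_center_iff.2 fun y =>
      Subtype.ext ((Subgroup.mem_centralizer_iff.1 y.2.2 (x : G) hxW).symm)
  have hKF : K ≤ F := CfsgLib.Constrained.le_fitting inferInstance hKnil
  set F₁ := fittingSubgroup (G ⧸ W) with hF₁
  let f₁ : X →* fittingSubgroup ((G ⧸ W) ⧸ F₁) :=
    ((QuotientGroup.mk' F₁).comp ((QuotientGroup.mk' W).comp X.subtype)).codRestrict _ fun x => x.2.1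
  let f₂ : X →* fittingSubgroup H := (π.comp X.subtype).codRestrict _ fun x => x.2.2
  let f := f₁.prod f₂
  let p := (QuotientGroup.mk' F).comp X.subtype
  have hkerle : f.ker ≤ p.ker := by
    intro x hx
    rw [MonoidHom.mem_ker] at hx ⊢
    refine (QuotientGroup.eq_one_iff _).2 (hKF ⟨?_, ?_⟩)
    · show (QuotientGroup.mk' W) (x : G) ∈ F₁
      exact (QuotientGroup.eq_one_iff _).1 (congrArg Subtype.val (congrArg Prod.fst hx))
    · have h1 : π (x : G) = 1 := congrArg Subtype.val (congrArg Prod.snd hx)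
      rwa [← MonoidHom.mem_ker, hker] at h1
  have hrange : Group.IsNilpotent p.range := by
    haveI : Group.IsNilpotent (X ⧸ f.ker) :=
      Group.nilpotent_of_mulEquiv (QuotientGroup.quotientKerEquivRange f).symm
    exact Group.nilpotent_of_surjective
      ((QuotientGroup.lift f.ker p hkerle).codRestrict p.range fun x => by
        induction x using QuotientGroup.induction_on with
        | _ x => exact ⟨x, rfl⟩)
      (fun ⟨_, x, hx⟩ => ⟨(x : X ⧸ f.ker), Subtype.ext hx⟩)
  have hpr : X.map (QuotientGroup.mk' F) = p.range := by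
    rw [MonoidHom.range_comp, Subgroup.range_subtype]
  rw [fittingTwo, ← Subgroup.map_le_iff_le_comap, hpr]
  exact CfsgLib.Constrained.le_fitting
    (hpr ▸ Subgroup.Normal.map inferInstance _ (QuotientGroup.mk'_surjective F)) hrange

/-- A chain with one more step below. -/
theorem chain_cons {G : Type u} [Group G] (N : Subgroup G) [N.Normal] [Group.IsNilpotent N] {m : ℕ}
    (h : ∃ F : Fin (m + 1) → Subgroup (G ⧸ N), F 0 = ⊥ ∧ F (Fin.last m) = ⊤ ∧ Monotone F ∧
      (∀ i, (F i).Normal) ∧ ∀ i : Fin m, ∃ k : ℕ, (F i.succ).lowerCentralSeries k ≤ F i.castSucc) :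
    ∃ F : Fin (m + 1 + 1) → Subgroup G, F 0 = ⊥ ∧ F (Fin.last (m + 1)) = ⊤ ∧ Monotone F ∧
      (∀ i, (F i).Normal) ∧ ∀ i : Fin (m + 1), ∃ k : ℕ, (F i.succ).lowerCentralSeries k ≤ F i.castSucc := by
  obtain ⟨F, hF0, hFn, hFm, hFN, hFk⟩ := h
  refine ⟨Fin.cons ⊥ fun i => (F i).comap (QuotientGroup.mk' N), rfl, ?_, ?_, ?_, ?_⟩
  · rw [← Fin.succ_last, Fin.cons_succ, hFn, Subgroup.comap_top]
  · refine Fin.monotone_iff_le_succ.2 fun i => ?_
    cases i using Fin.cases with
    | zero => exact bot_le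
    | succ i =>
      rw [← Fin.succ_castSucc, Fin.cons_succ, Fin.cons_succ]
      exact Subgroup.comap_mono (hFm (Fin.castSucc_le_succ i))
  · intro i
    cases i using Fin.cases with
    | zero => rw [Fin.cons_zero]; infer_instance
    | succ i => rw [Fin.cons_succ]; exact (hFN i).comap _
  · intro i
    cases i using Fin.cases with
    | zero =>
      obtain ⟨k, hk⟩ := Subgroup.nilpotent_iff_lowerCentralSeries.1 (inferInstance : Group.IsNilpotent N)
      refine ⟨k, ?_⟩
      rw [Fin.cons_succ, hF0, Fin.castSucc_zero, Fin.cons_zero, MonoidHom.comap_bot, QuotientGroup.ker_mk']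
      have h1 := congrArg (Subgroup.map N.subtype) hk
      rw [Subgroup.map_lowerCentralSeries, ← MonoidHom.range_eq_map, Subgroup.range_subtype,
        Subgroup.map_bot] at h1
      exact h1.le
    | succ i =>
      obtain ⟨k, hk⟩ := hFk i
      refine ⟨k, ?_⟩
      rw [Fin.cons_succ, ← Fin.succ_castSucc, Fin.cons_succ]
      exact CfsgLib.ShultGrossH65.lowerCentralSeries_comap_le _ hk

/-- Gross's bound. -/
theorem fitting_height_le : ∀ (n : ℕ) (G : Type u) [Group G] [Finite G],
    Group.IsSolvable G → ∀ σ : MulAut G, σ ^ 2 ^ (n + 2) = 1 → (∀ g : G, σ g = g → g = 1) →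
    ∃ F : Fin (2 * n + 2 + 1) → Subgroup G, F 0 = ⊥ ∧ F (Fin.last (2 * n + 2)) = ⊤ ∧ Monotone F ∧
      (∀ i, (F i).Normal) ∧ ∀ i : Fin (2 * n + 2), ∃ k : ℕ, (F i.succ).lowerCentralSeries k ≤ F i.castSucc := by
  intro n
  induction n with
  | zero =>
    intro G _ _ hsol σ hσ hfpf
    haveI : Group.IsNilpotent (commutator G) := Cfsg.Agent.S3794.result hsol σ hσ hfpf
    refine chain_cons (commutator G) (m := 1) ⟨![⊥, ⊤], rfl, rfl, ?_, ?_, ?_⟩
    · refine Fin.monotone_iff_le_succ.2 fun i => ?_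
      fin_cases i
      exact bot_le
    · intro i
      fin_cases i
      · show (⊥ : Subgroup (G ⧸ commutator G)).Normal; infer_instance
      · show (⊤ : Subgroup (G ⧸ commutator G)).Normal; infer_instance
    · intro i
      fin_cases i
      refine ⟨1, ?_⟩
      show (⊤ : Subgroup (G ⧸ commutator G)).lowerCentralSeries 1 ≤ ⊥
      rw [Subgroup.top_lowerCentralSeries_one]
      have h1 : commutator (G ⧸ commutator G) = (commutator G).map (QuotientGroup.mk' (commutator G)) :=
        (congrArg₂ (fun (S T : Subgroup (G ⧸ commutator G)) => ⁅S, T⁆)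
          (Subgroup.map_top_of_surjective _ (QuotientGroup.mk'_surjective (commutator G))).symm
          (Subgroup.map_top_of_surjective _ (QuotientGroup.mk'_surjective (commutator G))).symm).trans
          (Subgroup.map_commutator _ _ _).symm
      rw [h1, QuotientGroup.map_mk'_self]
  | succ n ih =>
    intro G _ _ hsol σ hσ hfpf
    classical
    haveI := hsol
    have hτ : ∀ g : G, g⁻¹ * (σ ^ 2 ^ (n + 2)) g ∈ fittingTwo G :=
      inv_mul_smul_mem_fittingTwo (A := MulAut G) σ (n + 3) (Nat.succ_pos _) hσ _ G rfl hsol hfpf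
    set N₁ := fittingSubgroup G with hN₁
    have hN₁σ : N₁.map (σ : G ≃* G).toMonoidHom = N₁ :=
      Subgroup.characteristic_iff_map_eq.1 (inferInstance : (fittingSubgroup G).Characteristic) σ
    let σ₁ : MulAut (G ⧸ N₁) := QuotientGroup.congr N₁ N₁ σ hN₁σ
    have hσ₁ : ∀ (i : ℕ) (s : G), (σ₁ ^ i) (s : G ⧸ N₁) = (((σ ^ i) s : G) : G ⧸ N₁) := by
      intro i
      induction i with
      | zero => simp
      | succ i ih =>
        intro s
        rw [pow_succ', pow_succ', MulAut.mul_apply, MulAut.mul_apply, ih]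
        rfl
    have hσ₁fpf : ∀ x : G ⧸ N₁, σ₁ x = x → x = 1 := fun x hx => by
      obtain ⟨g, rfl⟩ := QuotientGroup.mk_surjective x
      rw [show σ₁ (g : G ⧸ N₁) = ((σ g : G) : G ⧸ N₁) from rfl, eq_comm, QuotientGroup.eq] at hx
      exact (QuotientGroup.eq_one_iff g).2
        (CfsgLib.ShultGrossH65.mem_of_fpf σ hfpf (fun y hy => hN₁σ.le ⟨y, hy, rfl⟩) hx)
    set N₂ := fittingSubgroup (G ⧸ N₁) with hN₂
    have hN₂σ : N₂.map (σ₁ : (G ⧸ N₁) ≃* (G ⧸ N₁)).toMonoidHom = N₂ :=
      Subgroup.characteristic_iff_map_eq.1 (inferInstance : (fittingSubgroup (G ⧸ N₁)).Characteristic) σ₁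
    let σ₂ : MulAut ((G ⧸ N₁) ⧸ N₂) := QuotientGroup.congr N₂ N₂ σ₁ hN₂σ
    have hσ₂ : ∀ (i : ℕ) (s : G ⧸ N₁),
        (σ₂ ^ i) (s : (G ⧸ N₁) ⧸ N₂) = (((σ₁ ^ i) s : G ⧸ N₁) : (G ⧸ N₁) ⧸ N₂) := by
      intro i
      induction i with
      | zero => simp
      | succ i ih =>
        intro s
        rw [pow_succ', pow_succ', MulAut.mul_apply, MulAut.mul_apply, ih]
        rfl
    have h := ih ((G ⧸ N₁) ⧸ N₂) inferInstance σ₂ (by
      refine MulEquiv.ext fun x => ?_
      obtain ⟨x, rfl⟩ := QuotientGroup.mk_surjective x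
      obtain ⟨g, rfl⟩ := QuotientGroup.mk_surjective x
      rw [hσ₂, hσ₁, MulAut.one_apply, eq_comm, QuotientGroup.eq, ← QuotientGroup.mk_inv, ← QuotientGroup.mk_mul]
      exact hτ g) (fun x hx => by
      obtain ⟨g, rfl⟩ := QuotientGroup.mk_surjective x
      rw [show σ₂ (g : (G ⧸ N₁) ⧸ N₂) = ((σ₁ g : G ⧸ N₁) : (G ⧸ N₁) ⧸ N₂) from rfl, eq_comm,
        QuotientGroup.eq] at hx
      exact (QuotientGroup.eq_one_iff g).2
        (CfsgLib.ShultGrossH65.mem_of_fpf σ₁ hσ₁fpf (fun y hy => hN₂σ.le ⟨y, hy, rfl⟩) hx))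
    exact chain_cons N₁ (chain_cons N₂ h)

end CfsgLib.GrossHeight
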